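import Cfsg.Agent.Lib.O8p3.Elt

/-! The thirteen classes of elements of order three in `Ω⁺(8, 3)`. -/

set_option autoImplicit false

namespace Cfsg.Lib.O8p3

open QuadraticMap Module Cfsg.Lib.Orth

/-- Conjugacy under `Ω`. -/
def OC (g h : O Q8) : Prop := ∃ w ∈ commutator (O Q8), w * g * w⁻¹ = h

theorem OC.of_eq {g h : O Q8} (e : g = h) : OC g h := ⟨1, one_mem _, by simp [e]⟩

theorem OC.symm {g h : O Q8} (H : OC g h) : OC h g :=
  let ⟨w, hw, e⟩ := H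
  ⟨w⁻¹, inv_mem hw, by rw [← e]; group⟩

theorem OC.trans {g h k : O Q8} (H : OC g h) (H' : OC h k) : OC g k :=
  let ⟨w, hw, e⟩ := H
  let ⟨w', hw', e'⟩ := H'
  ⟨w' * w, mul_mem hw' hw, by rw [← e', ← e]; group⟩

theorem OC.conj {g h : O Q8} (H : OC g h) (t : O Q8) : OC (t * g * t⁻¹) (t * h * t⁻¹) :=
  let ⟨w, hw, e⟩ := H
  ⟨t * w * t⁻¹, Subgroup.Normal.conj_mem inferInstance _ hw t, by rw [← e]; group⟩

theorem OC.isConj {g h : O Q8} (H : OC g h) : IsConj g h :=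
  let ⟨w, _, e⟩ := H
  isConj_iff.2 ⟨w, e⟩

theorem oc_of_ds {s t : O Q8} (h : ds s = ds t) (g : O Q8) : OC (t * g * t⁻¹) (s * g * s⁻¹) :=
  ⟨s * t⁻¹, ds_eq_one_iff.1 (by rw [map_mul, map_inv, h, mul_inv_cancel]), by group⟩

theorem exists_ds {p m : O Q8} (hp : ds p = (-1, 1)) (hm : ds m = (-1, -1)) (t : O Q8) :
    ds 1 = ds t ∨ ds p = ds t ∨ ds m = ds t ∨ ds (p * m) = ds t := by
  rw [map_one, map_mul, hp, hm]
  generalize ds t = s
  revert s
  decide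

theorem oc_of_full {g p m : O Q8} (hp : ds p = (-1, 1)) (hm : ds m = (-1, -1)) (cp : Commute p g)
    (cm : Commute m g) {h : O Q8} (H : IsConj g h) : OC h g := by
  obtain ⟨t, rfl⟩ := isConj_iff.1 H
  have : ∀ s, Commute s g → ds s = ds t → OC (t * g * t⁻¹) g := fun s hs e =>
    (oc_of_ds e g).trans (.of_eq (by rw [hs.eq, mul_inv_cancel_right]))
  rcases exists_ds hp hm t with e | e | e | e
  exacts [this _ (.one_left g) e, this _ cp e, this _ cm e, this _ (cp.mul_left cm) e]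

noncomputable def rp : O Q8 := refl Q8 (nv 1 1)
noncomputable def rm : O Q8 := refl Q8 (nv 1 (-1))

theorem ds_rp : ds rp = (-1, 1) := ds_refl_pos (by rw [Q_nv, one_mul])
theorem ds_rm : ds rm = (-1, -1) := ds_refl_neg (by rw [Q_nv, one_mul])

theorem conj_u (g : O Q8) (a x y : K3) : g * u a x y * g⁻¹ =
    eich Q8 (g.1 e0) (g.1 (mv a)) * eich Q8 (g.1 e1) (g.1 (nv x y)) := by
  rw [u, ← conj_eich, ← conj_eich]
  group

theorem rp_conj (a x y : K3) : rp * u a x y * rp⁻¹ = u a (-y) (-x) := by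
  rw [conj_u, rp, refl_apply_of_perp, refl_apply_of_perp, refl_apply_of_perp, refl_apply, Q_nv, u]
  · congr 2
    refine ext8 ?_ ?_ ?_ ?_ ?_ ?_ ?_ ?_ <;> simp [polar8, nv]
  all_goals simp [polar8, e0, e1, mv, nv]

theorem rm_conj (a x y : K3) : rm * u a x y * rm⁻¹ = u a y x := by
  rw [conj_u, rm, refl_apply_of_perp, refl_apply_of_perp, refl_apply_of_perp, refl_apply, Q_nv, u]
  · congr 2
    refine ext8 ?_ ?_ ?_ ?_ ?_ ?_ ?_ ?_ <;> simp [polar8, nv]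
  all_goals simp [polar8, e0, e1, mv, nv]

theorem oc_d {h : O Q8} (H : IsConj (u 1 1 1) h) : OC h (u 1 1 1) :=
  oc_of_full (p := refl Q8 (vc 0 0 1 1 0 0 (-1) (-1))) (ds_refl_pos (by decide)) ds_rm
    (commute_refl (by decide) (by decide) (by decide) (by decide))
    (commute_refl (by decide) (by decide) (by decide) (by decide)) H

theorem oc_d' {h : O Q8} (H : IsConj (u 1 1 (-1)) h) : OC h (u 1 1 (-1)) :=
  oc_of_full (m := refl Q8 (mv (-1))) ds_rp (ds_refl_neg (Q_mv _))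
    (commute_refl (by decide) (by decide) (by decide) (by decide))
    (commute_refl (by decide) (by decide) (by decide) (by decide)) H

def pa : Fin 13 → K3 := ![0, 1, -1, 0, 0, 0, 0, 0, 0, 0, 0, 1, 1]
def px : Fin 13 → K3 := ![0, 0, 0, 1, 0, 0, -1, 1, -1, 1, -1, 1, 1]
def py : Fin 13 → K3 := ![0, 0, 0, 0, -1, 1, 0, 1, -1, -1, 1, 1, -1]

/-- The thirteen representatives. -/
noncomputable def U (i : Fin 13) : O Q8 := u (pa i) (px i) (py i)

def pi1 : Equiv.Perm (Fin 13) := .swap 3 4 * .swap 5 6 * .swap 7 8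
def pi2 : Equiv.Perm (Fin 13) := .swap 1 2 * .swap 4 5 * .swap 7 9 * .swap 8 10
def pi3 : Equiv.Perm (Fin 13) := .swap 3 5 * .swap 4 6 * .swap 9 10

theorem rp_U (i : Fin 13) : OC (rp * U i * rp⁻¹) (U (pi1 i)) := by
  have : i = 11 ∨ (pa (pi1 i) = pa i ∧ px (pi1 i) = -py i ∧ py (pi1 i) = -px i) := by
    revert i; decide
  rcases this with rfl | ⟨h1, h2, h3⟩
  · exact oc_d (isConj_iff.2 ⟨rp, rfl⟩)
  · rw [U, U, h1, h2, h3, rp_conj]; exact .of_eq rfl

theorem rm_U (i : Fin 13) : OC (rm * U i * rm⁻¹) (U (pi3 i)) := by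
  have : i = 12 ∨ (pa (pi3 i) = pa i ∧ px (pi3 i) = py i ∧ py (pi3 i) = px i) := by
    revert i; decide
  rcases this with rfl | ⟨h1, h2, h3⟩
  · exact oc_d' (isConj_iff.2 ⟨rm, rfl⟩)
  · rw [U, U, h1, h2, h3, rm_conj]; exact .of_eq rfl

theorem oc_of_isConj {g : O Q8} {i : Fin 13} (H : IsConj g (U i)) : ∃ j, OC g (U j) := by
  obtain ⟨t, rfl⟩ := isConj_iff.1 H.symm
  rcases exists_ds ds_rp ds_rm t with e | e | e | e
  · exact ⟨i, (oc_of_ds e _).trans (.of_eq (by simp))⟩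
  · exact ⟨_, (oc_of_ds e _).trans (rp_U i)⟩
  · exact ⟨_, (oc_of_ds e _).trans (rm_U i)⟩
  · exact ⟨_, (oc_of_ds e _).trans ((OC.of_eq (by group)).trans
      (((rm_U i).conj rp).trans (rp_U _)))⟩

theorem cover_U {g : O Q8} (hg : g ^ 3 = 1) (h1 : g ≠ 1) : ∃ j, OC g (U j) := by
  rcases cover_O hg h1 with ⟨a, h⟩ | ⟨y, h⟩ | h | h
  · rcases cases3 a with rfl | rfl | rfl
    exacts [oc_of_isConj (i := 0) h, oc_of_isConj (i := 1) h, oc_of_isConj (i := 2) h]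
  · rcases cases3 y with rfl | rfl | rfl
    exacts [oc_of_isConj (i := 3) h, oc_of_isConj (i := 7) h, oc_of_isConj (i := 9) h]
  exacts [oc_of_isConj (i := 11) h, oc_of_isConj (i := 12) h]

/-! ### Inverses -/

def sgnL (s t : K3) : V8 →ₗ[K3] V8 where
  toFun v := vc (s * v (.inl 0)) (s * v (.inl 1)) (t * v (.inl 2)) (t * v (.inl 3))
    (-v (.inr 0)) (-v (.inr 1)) (v (.inr 2)) (v (.inr 3))
  map_add' v w := by refine ext8 ?_ ?_ ?_ ?_ ?_ ?_ ?_ ?_ <;> simp <;> ring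
  map_smul' c v := by refine ext8 ?_ ?_ ?_ ?_ ?_ ?_ ?_ ?_ <;> simp <;> ring

theorem sgnL_apply (s t : K3) (v : V8) : sgnL s t v = vc (s * v (.inl 0)) (s * v (.inl 1))
    (t * v (.inl 2)) (t * v (.inl 3)) (-v (.inr 0)) (-v (.inr 1)) (v (.inr 2)) (v (.inr 3)) := rfl

theorem inv_U (i : Fin 13) : OC (U i) (U i)⁻¹ := by
  let w : O Q8 := O.ofLinear nd8 (sgnL (-1) 1) fun v => by simp [Q8_apply, sgnL_apply]
  have hw : ∀ v, w.1 v = sgnL (-1) 1 v := fun v => rfl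
  refine ⟨w, mem_of_det w ?_ ?_, ?_⟩
  · intro j i
    fin_cases i <;> simp [hw, sgnL_apply]
  · rw [det_four]
    simp [hw, sgnL_apply]
  · have : U i * w * U i = w := O.ext fun v => by
      rw [O.mul_apply, O.mul_apply, U, u_apply, u_apply, hw, hw]
      refine ext8 ?_ ?_ ?_ ?_ ?_ ?_ ?_ ?_ <;> simp [sgnL_apply, nn] <;> ring
    rw [mul_inv_eq_iff_eq_mul, eq_inv_mul_iff_mul_eq, ← mul_assoc, this]

/-! ### A similarity with multiplier `-1` -/

/-- A similarity of multiplier `-1`. -/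
noncomputable def delta : Gam Q8 :=
  Gam.ofLin (LinearEquiv.ofInvolutive (sgnL 1 (-1)) fun v => by
    refine ext8 ?_ ?_ ?_ ?_ ?_ ?_ ?_ ?_ <;> simp [sgnL_apply]) (-1) fun v => by
    change Q8 (sgnL 1 (-1) v) = _
    simp [Q8_apply, sgnL_apply]
    ring

theorem delta_T (v : V8) : delta.T v = sgnL 1 (-1) v := rfl

theorem delta_u (a x y : K3) : Gam.cj Q8 delta (u a x y) = u (-a) x (-y) := by
  rw [u, map_mul, Gam.cj_eich, Gam.cj_eich, u, show (delta.c : K3) = -1 from rfl]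
  congr 2 <;> rw [delta_T] <;> refine ext8 ?_ ?_ ?_ ?_ ?_ ?_ ?_ ?_ <;>
    simp [sgnL_apply, e0, e1, mv, nv]

theorem delta_U (i : Fin 13) : OC (Gam.cj Q8 delta (U i)) (U (pi2 i)) := by
  have : i = 11 ∨ i = 12 ∨ (pa (pi2 i) = -pa i ∧ px (pi2 i) = px i ∧ py (pi2 i) = -py i) := by
    revert i; decide
  rw [U, delta_u]
  rcases this with rfl | rfl | ⟨h1, h2, h3⟩
  · exact oc_d conj_neg_neg.symm
  · exact oc_d' conj_neg_pos.symm
  · rw [U, h1, h2, h3]; exact .of_eq rfl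

/-! ### Invariants -/

def J1 (c : K3) (g : O Q8) : Prop := ∃ v, Q8 (g.1 v - v) = c
def J2 (c : K3) (g : O Q8) : Prop := ∃ v, g.1 v = v ∧ Q8 v = c
def J3 (g : O Q8) : Prop := ∃ v, Q8 (g.1 v - v) = 0 ∧ g.1 (g.1 v - v) ≠ g.1 v - v

theorem J1.conj {c : K3} {g h : O Q8} (H : IsConj g h) (hg : J1 c g) : J1 c h := by
  obtain ⟨t, rfl⟩ := isConj_iff.1 H
  obtain ⟨v, hv⟩ := hg
  exact ⟨t.1 v, by rwa [O.mul_apply, O.mul_apply, O.inv_apply_apply, ← map_sub, O.map_Q]⟩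

theorem J2.conj {c : K3} {g h : O Q8} (H : IsConj g h) (hg : J2 c g) : J2 c h := by
  obtain ⟨t, rfl⟩ := isConj_iff.1 H
  obtain ⟨v, hv, hv'⟩ := hg
  exact ⟨t.1 v, by rw [O.mul_apply, O.mul_apply, O.inv_apply_apply, hv], by rwa [O.map_Q]⟩

theorem J3.conj {g h : O Q8} (H : IsConj g h) (hg : J3 g) : J3 h := by
  obtain ⟨t, rfl⟩ := isConj_iff.1 H
  obtain ⟨v, hv, hv'⟩ := hg
  refine ⟨t.1 v, ?_⟩
  simp only [O.mul_apply, O.inv_apply_apply, ← map_sub, O.map_Q]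
  exact ⟨hv, fun h => hv' (t.1.injective h)⟩

theorem Q_nn (a x y : K3) (v : V8) :
    Q8 (nn a x y v) = a * v (.inr 0) ^ 2 + x * y * v (.inr 1) ^ 2 := by
  simp [Q8_apply, nn]; ring

theorem J1_u {c a x y : K3} : J1 c (u a x y) ↔ ∃ p q, a * p ^ 2 + x * y * q ^ 2 = c := by
  simp only [J1, u_apply, add_sub_cancel_left, Q_nn]
  exact ⟨fun ⟨v, h⟩ => ⟨_, _, h⟩, fun ⟨p, q, h⟩ => ⟨vc 0 0 0 0 p q 0 0, h⟩⟩

theorem J2_u {c a x y : K3} : J2 c (u a x y) ↔ ∃ p q r s t, x * q = 0 ∧ y * q = 0 ∧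
    x * t + y * s = 0 ∧ p * q - a * r ^ 2 + s * t = c := by
  simp only [J2, u_apply, add_eq_left]
  constructor
  · rintro ⟨v, h, rfl⟩
    have a0 := congrFun h (.inl 0)
    have a1 := congrFun h (.inl 1)
    have a2 := congrFun h (.inl 2)
    have a3 := congrFun h (.inl 3)
    have a4 := congrFun h (.inr 3)
    simp only [nn, vc_l0, vc_l1, vc_l2, vc_l3, vc_r3, Pi.zero_apply, neg_eq_zero] at a0 a1 a2 a3 a4
    refine ⟨v (.inl 1), v (.inr 1), v (.inl 2), v (.inl 3), v (.inr 3), a3, a4,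
      by linear_combination a1 + x * a4, ?_⟩
    rw [Q8_apply]
    linear_combination -v (.inl 2) * a0 - (v (.inl 0) + a * v (.inl 2)) * a2
  · rintro ⟨p, q, r, s, t, h1, h2, h3, rfl⟩
    refine ⟨vc 0 p r s 0 q (-(a * r)) t, ?_, by simp [Q8_apply]; ring⟩
    refine ext8 ?_ ?_ ?_ ?_ ?_ ?_ ?_ ?_ <;> simp only [nn, vc_l0, vc_l1, vc_l2, vc_l3, vc_r0, vc_r1,
      vc_r2, vc_r3, Pi.zero_apply]
    · ring
    · linear_combination h3 - x * h2
    · ring
    · rw [h1, neg_zero]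
    · ring
    · rw [h2, neg_zero]

theorem J3_u {a x y : K3} : J3 (u a x y) ↔ ∃ p q, a * p ^ 2 + x * y * q ^ 2 = 0 ∧
    ¬ (a * p = 0 ∧ x * y * q = 0) := by
  have key : ∀ v, nn a x y (nn a x y v) = 0 ↔ a * v (.inr 0) = 0 ∧ x * y * v (.inr 1) = 0 := by
    intro v
    constructor
    · intro h
      have a0 := congrFun h (.inl 0)
      have a1 := congrFun h (.inl 1)
      simp only [nn, vc_l0, vc_l1, vc_l2, vc_l3, vc_r0, vc_r1, vc_r2, vc_r3, Pi.zero_apply] at a0 a1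
      exact ⟨by linear_combination a0 + a * v (.inr 0) * h3,
        by linear_combination a1 + x * y * v (.inr 1) * h3⟩
    · rintro ⟨h1, h2⟩
      refine ext8 ?_ ?_ ?_ ?_ ?_ ?_ ?_ ?_ <;> simp only [nn, vc_l0, vc_l1, vc_l2, vc_l3, vc_r0, vc_r1,
        vc_r2, vc_r3, Pi.zero_apply]
      · linear_combination -2 * h1
      · linear_combination -2 * h2
      all_goals ring
  simp only [J3, u_apply, add_sub_cancel_left, Q_nn, ne_eq, add_eq_left, key]
  exact ⟨fun ⟨v, h⟩ => ⟨_, _, h⟩, fun ⟨p, q, h⟩ => ⟨vc 0 0 0 0 p q 0 0, h⟩⟩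

def bs : Fin 13 → Fin 13 := ![0, 1, 2, 3, 3, 3, 3, 7, 7, 9, 9, 11, 12]
def tb1 : Fin 13 → Bool := ![false, true, false, false, false, false, false, true, true, false, false, true, true]
def tb2 : Fin 13 → Bool := ![false, false, true, false, false, false, false, false, false, true, true, true, true]
def tb3 : Fin 13 → Bool := ![true, true, true, false, false, false, false, false, false, true, true, true, true]
def tb4 : Fin 13 → Bool := ![true, true, true, false, false, false, false, true, true, false, false, true, true]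

theorem bs_eq {i j : Fin 13} (H : IsConj (U i) (U j)) : bs i = bs j := by
  have t1 : ∀ i, J1 1 (U i) ↔ tb1 i = true := fun i => by rw [U, J1_u]; revert i; decide +kernel
  have t2 : ∀ i, J1 (-1) (U i) ↔ tb2 i = true := fun i => by rw [U, J1_u]; revert i; decide +kernel
  have t3 : ∀ i, J2 1 (U i) ↔ tb3 i = true := fun i => by rw [U, J2_u]; revert i; decide +kernel
  have t4 : ∀ i, J2 (-1) (U i) ↔ tb4 i = true := fun i => by rw [U, J2_u]; revert i; decide +kernel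
  have t5 : ∀ i, J3 (U i) ↔ i = 12 := fun i => by rw [U, J3_u]; revert i; decide +kernel
  have h1 := (t1 i).symm.trans (Iff.trans ⟨J1.conj H, J1.conj H.symm⟩ (t1 j))
  have h2 := (t2 i).symm.trans (Iff.trans ⟨J1.conj H, J1.conj H.symm⟩ (t2 j))
  have h3 := (t3 i).symm.trans (Iff.trans ⟨J2.conj H, J2.conj H.symm⟩ (t3 j))
  have h4 := (t4 i).symm.trans (Iff.trans ⟨J2.conj H, J2.conj H.symm⟩ (t4 j))
  have h5 := (t5 i).symm.trans (Iff.trans ⟨J3.conj H, J3.conj H.symm⟩ (t5 j))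
  clear H t1 t2 t3 t4 t5
  revert i j
  decide +kernel

noncomputable def tt : Fin 13 → O Q8 := ![1, 1, 1, 1, rp, rm, rp * rm, 1, rp, 1, rm, 1, 1]
def dv : Fin 13 → ℤˣ × ℤˣ :=
  ![1, 1, 1, 1, (-1, 1), (-1, -1), (1, -1), 1, (-1, 1), 1, (-1, -1), 1, 1]

theorem ds_tt (i : Fin 13) : ds (tt i) = dv i := by
  fin_cases i <;> simp [tt, dv, ds_rp, ds_rm]

theorem U_eq (i : Fin 13) : U i = tt i * U (bs i) * (tt i)⁻¹ := by
  have h : ∀ g : O Q8, g = 1 * g * 1⁻¹ := by simp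
  have h4 : u 0 0 (-1) = rp * u 0 1 0 * rp⁻¹ := by rw [rp_conj, neg_zero]
  have h5 : u 0 0 1 = rm * u 0 1 0 * rm⁻¹ := by rw [rm_conj]
  have h6 : u 0 (-1) 0 = rp * rm * u 0 1 0 * (rp * rm)⁻¹ := by
    rw [show rp * rm * u 0 1 0 * (rp * rm)⁻¹ = rp * (rm * u 0 1 0 * rm⁻¹) * rp⁻¹ by group, rm_conj,
      rp_conj, neg_zero]
  have h8 : u 0 (-1) (-1) = rp * u 0 1 1 * rp⁻¹ := by rw [rp_conj]
  have h10 : u 0 (-1) 1 = rm * u 0 1 (-1) * rm⁻¹ := by rw [rm_conj]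
  fin_cases i
  exacts [h (U 0), h (U 1), h (U 2), h (U 3), h4, h5, h6, h (U 7), h8, h (U 9), h10, h (U 11),
    h (U 12)]

theorem inj_U {i j : Fin 13} (H : OC (U i) (U j)) : i = j := by
  have hb := bs_eq H.isConj
  obtain ⟨w, hw, e⟩ := H
  have hc : Commute ((tt j)⁻¹ * w * tt i) (U (bs i)) := by
    rw [U_eq i, U_eq j, ← hb] at e
    rw [Commute, SemiconjBy, ← mul_inv_eq_iff_eq_mul]
    calc _ = (tt j)⁻¹ * (w * (tt i * U (bs i) * (tt i)⁻¹) * w⁻¹) * tt j := by group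
      _ = _ := by rw [e]; group
  have hd : ds ((tt j)⁻¹ * w * tt i) = (dv j)⁻¹ * dv i := by
    rw [map_mul, map_mul, map_inv, ds_eq_one_iff.2 hw, mul_one, ds_tt, ds_tt]
  have : i = j ∨ bs i = 3 ∨ bs i = 7 ∨ bs i = 9 := by
    clear hd hc e; revert i j; decide +kernel
  rcases this with h | h | h | h
  · exact h
  · rw [h] at hc
    have := hd.symm.trans (cent_a hc)
    clear hd hc e; revert i j; decide +kernel
  · rw [h] at hc
    have := cent_c (b := 1) (by decide) hc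
    rw [hd, ← rm, ds_rm] at this
    clear hd hc e; revert i j; decide +kernel
  · rw [h] at hc
    have := cent_c (b := -1) (by decide) hc
    rw [hd, neg_neg, ← rp, ds_rp] at this
    clear hd hc e; revert i j; decide +kernel

end Cfsg.Lib.O8p3
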