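import Cfsg.Agent.Lib.O8p3.Step
import Cfsg.Agent.Lib.Orth.Levi
import Cfsg.Agent.Lib.Orth.GammaStd

/-! The elements `u a x y` of order three of `O⁺(8, 3)` and their centralisers. -/

set_option autoImplicit false

namespace Cfsg.Lib.O8p3

open QuadraticMap Module Cfsg.Lib.Orth

abbrev K3 : Type := ZMod 3
abbrev V8 : Type := Fin 4 ⊕ Fin 4 → K3
abbrev Q8 : QuadraticForm K3 V8 := qPlus 4 K3

theorem h3 : (3 : K3) = 0 := by decide
theorem nd8 : ND Q8 := nd_qPlus 4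
theorem dim8 : finrank K3 V8 = 8 := by simp
theorem nexc8 : ¬ Exc Q8 := not_exc_of_five_le (by rw [dim8]; omega)

theorem Q8_apply (v : V8) : Q8 v = v (.inl 0) * v (.inr 0) + v (.inl 1) * v (.inr 1) +
    v (.inl 2) * v (.inr 2) + v (.inl 3) * v (.inr 3) := by
  rw [qPlus_apply, Fin.sum_univ_four]

theorem polar8 (u v : V8) : polar Q8 u v = u (.inl 0) * v (.inr 0) + u (.inr 0) * v (.inl 0) +
    (u (.inl 1) * v (.inr 1) + u (.inr 1) * v (.inl 1)) +
    (u (.inl 2) * v (.inr 2) + u (.inr 2) * v (.inl 2)) +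
    (u (.inl 3) * v (.inr 3) + u (.inr 3) * v (.inl 3)) := by
  rw [polar_qPlus, Fin.sum_univ_four]

/-- A vector by its coordinates. -/
def vc (a b c d a' b' c' d' : K3) : V8 := Sum.elim ![a, b, c, d] ![a', b', c', d']

section
variable (a b c d a' b' c' d' : K3)
@[simp] theorem vc_l0 : vc a b c d a' b' c' d' (.inl 0) = a := rfl
@[simp] theorem vc_l1 : vc a b c d a' b' c' d' (.inl 1) = b := rfl
@[simp] theorem vc_l2 : vc a b c d a' b' c' d' (.inl 2) = c := rfl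
@[simp] theorem vc_l3 : vc a b c d a' b' c' d' (.inl 3) = d := rfl
@[simp] theorem vc_r0 : vc a b c d a' b' c' d' (.inr 0) = a' := rfl
@[simp] theorem vc_r1 : vc a b c d a' b' c' d' (.inr 1) = b' := rfl
@[simp] theorem vc_r2 : vc a b c d a' b' c' d' (.inr 2) = c' := rfl
@[simp] theorem vc_r3 : vc a b c d a' b' c' d' (.inr 3) = d' := rfl
end

theorem ext8 {v w : V8} (h0 : v (.inl 0) = w (.inl 0)) (h1 : v (.inl 1) = w (.inl 1))
    (h2 : v (.inl 2) = w (.inl 2)) (h3 : v (.inl 3) = w (.inl 3)) (h4 : v (.inr 0) = w (.inr 0))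
    (h5 : v (.inr 1) = w (.inr 1)) (h6 : v (.inr 2) = w (.inr 2)) (h7 : v (.inr 3) = w (.inr 3)) :
    v = w := by
  ext (i | i) <;> fin_cases i
  exacts [h0, h1, h2, h3, h4, h5, h6, h7]

def e0 : V8 := vc 1 0 0 0 0 0 0 0
def e1 : V8 := vc 0 1 0 0 0 0 0 0
def mv (a : K3) : V8 := vc 0 0 1 0 0 0 a 0
def nv (x y : K3) : V8 := vc 0 0 0 x 0 0 0 y

theorem Q_e0 : Q8 e0 = 0 := by simp [Q8_apply, e0]
theorem Q_e1 : Q8 e1 = 0 := by simp [Q8_apply, e1]
theorem Q_mv (a : K3) : Q8 (mv a) = a := by simp [Q8_apply, mv]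
theorem Q_nv (x y : K3) : Q8 (nv x y) = x * y := by simp [Q8_apply, nv]
theorem e0_mv (a : K3) : polar Q8 e0 (mv a) = 0 := by simp [polar8, e0, mv]
theorem e1_nv (x y : K3) : polar Q8 e1 (nv x y) = 0 := by simp [polar8, e1, nv]

/-- The standard elements. -/
noncomputable def u (a x y : K3) : O Q8 := eich Q8 e0 (mv a) * eich Q8 e1 (nv x y)

/-- `u a x y - 1`. -/
def nn (a x y : K3) (v : V8) : V8 :=
  vc (v (.inr 2) + a * v (.inl 2) - a * v (.inr 0)) (x * v (.inr 3) + y * v (.inl 3) - x * y * v (.inr 1))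
    (-v (.inr 0)) (-(x * v (.inr 1))) 0 0 (-(a * v (.inr 0))) (-(y * v (.inr 1)))

theorem u_apply (a x y : K3) (v : V8) : (u a x y).1 v = v + nn a x y v := by
  rw [u, O.mul_apply, eich_apply Q_e0 (e0_mv a), eich_apply Q_e1 (e1_nv x y), Q_mv, Q_nv]
  refine ext8 ?_ ?_ ?_ ?_ ?_ ?_ ?_ ?_ <;> simp [polar8, e0, e1, mv, nv, nn] <;> ring

theorem u_mem (a x y : K3) : u a x y ∈ commutator (O Q8) :=
  mul_mem (eich_mem_commutator nd8 nexc8 _ _) (eich_mem_commutator nd8 nexc8 _ _)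

theorem u_cube (a x y : K3) : u a x y ^ 3 = 1 := by
  have h : Commute (eich Q8 e0 (mv a)) (eich Q8 e1 (nv x y)) := by
    have := conj_eich (eich Q8 e0 (mv a)) e1 (nv x y)
    rw [eich_apply Q_e0 (e0_mv a), eich_apply Q_e0 (e0_mv a)] at this
    simp only [polar8, e0, e1, mv, nv, vc_l0, vc_l1, vc_l2, vc_l3, vc_r0, vc_r1, vc_r2, vc_r3,
      mul_zero, zero_mul, add_zero, zero_smul, sub_zero] at this
    exact mul_inv_eq_iff_eq_mul.1 this
  rw [u, h.mul_pow, eich_cube h3, eich_cube h3, one_mul]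

theorem u_ne_one (a x y : K3) : u a x y ≠ 1 := fun h => by
  have := congrArg (fun g : O Q8 => g.1 (vc 0 0 0 0 1 0 0 0) (.inl 2)) h
  simp [u_apply, nn] at this

theorem li_pair (a : K3) : LinearIndependent K3 ![e0, mv a] := by
  rw [LinearIndependent.pair_iff]
  intro s t h
  exact ⟨by simpa [e0, mv] using congrFun h (.inl 0), by simpa [e0, mv] using congrFun h (.inl 2)⟩

theorem tup (a : K3) {x y : K3} (h : x ≠ 0 ∨ y ≠ 0) : Tup Q8 e0 (mv a) e1 (nv x y) := by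
  refine ⟨?_, Q_e0, Q_e1, e0_mv a, ?_, ?_, ?_, ?_, e1_nv x y⟩
  · rw [Fintype.linearIndependent_iff]
    intro c hc
    simp only [Fin.sum_univ_four, Matrix.cons_val] at hc
    intro i
    fin_cases i
    · simpa [e0, e1, mv, nv] using congrFun hc (.inl 0)
    · simpa [e0, e1, mv, nv] using congrFun hc (.inl 2)
    · simpa [e0, e1, mv, nv] using congrFun hc (.inl 1)
    · rcases h with h | h
      · simpa [e0, e1, mv, nv, h] using congrFun hc (.inl 3)
      · simpa [e0, e1, mv, nv, h] using congrFun hc (.inr 3)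
  all_goals simp [polar8, e0, e1, mv, nv]

theorem _root_.Cfsg.Lib.O8p3.Tup.conj_u {e m e' m' : V8} (s : Tup Q8 e m e' m') {a x y : K3}
    (h : x ≠ 0 ∨ y ≠ 0) (h1 : Q8 m = a) (h2 : Q8 m' = x * y) :
    IsConj (eich Q8 e m * eich Q8 e' m') (u a x y) :=
  s.conj nd8 (tup a h) (by rw [h1, Q_mv]) (by rw [h2, Q_nv])

theorem cases3 (a : K3) : a = 0 ∨ a = 1 ∨ a = -1 := by revert a; decide

/-- The eight classes in the full orthogonal group. -/
theorem cover_O {g : O Q8} (hg : g ^ 3 = 1) (h1 : g ≠ 1) :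
    (∃ a, IsConj g (u a 0 0)) ∨ (∃ y, IsConj g (u 0 1 y)) ∨ IsConj g (u 1 1 1) ∨
      IsConj g (u 1 1 (-1)) := by
  rcases decomp nd8 h3 dim8 hg h1 with ⟨e, m, h, he, hm, rfl⟩ | ⟨e, m, e', m', s, rfl⟩
  · refine Or.inl ⟨Q8 m, ?_⟩
    rw [u, show nv 0 0 = 0 by decide, eich_zero, mul_one]
    exact conj_pair nd8 h (li_pair _) he Q_e0 hm (e0_mv _) (Q_mv _).symm
  have o : (1 : K3) ≠ 0 ∨ Q8 m' ≠ 0 := Or.inl one_ne_zero
  have o' : (1 : K3) ≠ 0 ∨ Q8 m ≠ 0 := Or.inl one_ne_zero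
  have k := s.conj_u o rfl (one_mul _).symm
  have k' := s.swap.conj_u o' rfl (one_mul _).symm
  rw [← s.comm] at k'
  rcases cases3 (Q8 m) with h | h | h
  · exact Or.inr (Or.inl ⟨_, h ▸ k⟩)
  · rcases cases3 (Q8 m') with h' | h' | h'
    · exact Or.inr (Or.inl ⟨_, h' ▸ k'⟩)
    · rw [h, h'] at k; exact Or.inr (Or.inr (Or.inl k))
    · rw [h, h'] at k; exact Or.inr (Or.inr (Or.inr k))
  · rcases cases3 (Q8 m') with h' | h' | h'
    · exact Or.inr (Or.inl ⟨_, h' ▸ k'⟩)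
    · rw [h, h'] at k'; exact Or.inr (Or.inr (Or.inr k'))
    · obtain ⟨t, q1, q2, e⟩ := s.rot h3 (h.trans h'.symm)
      rw [e]
      exact Or.inr (Or.inr (Or.inl (t.conj_u (Or.inl one_ne_zero) (by rw [q1, h, neg_neg])
        (by rw [q2, h, neg_neg, one_mul]))))

theorem conj_neg_neg : IsConj (u (-1) 1 (-1)) (u 1 1 1) := by
  obtain ⟨t, q1, q2, e⟩ := (tup (-1) (x := 1) (y := -1) (Or.inl one_ne_zero)).rot h3
    (by rw [Q_mv, Q_nv, one_mul])
  rw [u, e]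
  exact t.conj_u (Or.inl one_ne_zero) (by rw [q1, Q_mv, neg_neg]) (by rw [q2, Q_mv, neg_neg, one_mul])

theorem conj_neg_pos : IsConj (u (-1) 1 1) (u 1 1 (-1)) := by
  have t := tup (-1) (x := 1) (y := 1) (Or.inl one_ne_zero)
  rw [u, t.comm]
  exact t.swap.conj_u (Or.inl one_ne_zero) (by rw [Q_nv, one_mul]) (by rw [Q_mv, one_mul])

/-! ### Membership in `Ω` -/

/-- Dickson invariant and spinor norm. -/
noncomputable abbrev ds : O Q8 →* ℤˣ × ℤˣ := dsHom nd8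

theorem ds_eq_one_iff {g : O Q8} : ds g = 1 ↔ g ∈ commutator (O Q8) := by
  rw [← ker_dsHom nd8 nexc8, MonoidHom.mem_ker]

theorem ds_refl_pos {v : V8} (h : Q8 v = 1) : ds (refl Q8 v) = (-1, 1) := by
  have : Q8 v ≠ 0 := by rw [h]; exact one_ne_zero
  rw [dsHom_apply, dickson_refl _ this, spinor_refl _ this, h, sqsign_one]

theorem ds_refl_neg {v : V8} (h : Q8 v = -1) : ds (refl Q8 v) = (-1, -1) := by
  have : Q8 v ≠ 0 := by rw [h]; decide
  rw [dsHom_apply, dickson_refl _ this, spinor_refl _ this, h, sqsign_of_not_isSquare (by decide)]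

theorem ds_neg : ds (O.neg Q8) = 1 :=
  ds_eq_one_iff.2 ((neg_mem_plus_iff (by rw [ZMod.card]; decide) 4).2 fun h => absurd h.1 (by decide))

/-- The basis vectors. -/
abbrev E (j : Fin 4) : V8 := Pi.single (.inl j) 1

theorem mem_of_det (c : O Q8) (h : ∀ j i, c.1 (E j) (.inr i) = 0)
    (hd : (Matrix.of fun i j => c.1 (E j) (.inl i)).det = 1) : c ∈ commutator (O Q8) := by
  let A : GL (Fin 4) K3 := Matrix.GeneralLinearGroup.mkOfDetNeZero _ (hd ▸ one_ne_zero)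
  have hA : (A : Matrix _ _ K3) = Matrix.of fun i j => c.1 (E j) (.inl i) := rfl
  have h1 : levi 4 K3 A ∈ commutator (O Q8) :=
    (levi_mem_commutator_iff nexc8 A).2 (by rw [hA, hd]; exact IsSquare.one)
  have h2 : (levi 4 K3 A)⁻¹ * c ∈ fixer Q8 (lagL 4 K3) := by
    intro v hv
    rw [O.mul_apply, O.inv_apply_eq]
    rw [mem_lagL] at hv
    have hv' : v = ∑ j, v (.inl j) • E j := by
      ext (i | i) <;> simp [Finset.sum_apply, Pi.single_apply, hv]
    ext (i | i)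
    · rw [levi_apply_inl, hA]
      nth_rewrite 1 [hv']
      simp [Finset.sum_apply, Matrix.mulVec, dotProduct, mul_comm]
    · rw [levi_apply_inr, show v ∘ Sum.inr = 0 from funext hv, Matrix.mulVec_zero]
      nth_rewrite 1 [hv']
      simp [Finset.sum_apply, h]
  rw [fixer_eq_genIn nd8, (lag_lagL 4).perp_eq nd8] at h2
  have h4 := genIn_le (K := commutator (O Q8)) (fun v hv hQ => absurd ((lag_lagL 4).1 v hv) hQ)
    (fun _ _ _ _ _ _ => eich_mem_commutator nd8 nexc8 _ _) h2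
  simpa using mul_mem h1 h4

theorem det_four (A : Matrix (Fin 4) (Fin 4) K3) : A.det =
    (A 0 0 * A 2 2 - A 2 0 * A 0 2 + A 1 0 * A 3 2 - A 3 0 * A 1 2) *
      (A 0 1 * A 2 3 - A 2 1 * A 0 3 + A 1 1 * A 3 3 - A 3 1 * A 1 3) -
    (A 0 0 * A 2 1 - A 2 0 * A 0 1 + A 1 0 * A 3 1 - A 3 0 * A 1 1) *
      (A 0 2 * A 2 3 - A 2 2 * A 0 3 + A 1 2 * A 3 3 - A 3 2 * A 1 3) +
    (A 0 0 * A 2 3 - A 2 0 * A 0 3 + A 1 0 * A 3 3 - A 3 0 * A 1 3) *
      (A 0 2 * A 2 1 - A 2 2 * A 0 1 + A 1 2 * A 3 1 - A 3 2 * A 1 1) := by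
  simp [Matrix.det_succ_row_zero, Fin.sum_univ_succ, Fin.succAbove]
  ring

theorem comm_nn {c : O Q8} {a x y : K3} (hc : Commute c (u a x y)) (v : V8) :
    c.1 (nn a x y v) = nn a x y (c.1 v) := by
  have := congrArg (fun g : O Q8 => g.1 v) hc.eq
  simpa only [O.mul_apply, u_apply, map_add, add_right_inj] using this

/-- The dual basis vectors. -/
abbrev E' (j : Fin 4) : V8 := Pi.single (.inr j) 1

theorem cent_a {c : O Q8} (hc : Commute c (u 0 1 0)) : ds c = 1 := by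
  have k0 : c.1 (E 0) = nn 0 1 0 (c.1 (E' 2)) := by rw [← comm_nn hc]; congr 1; decide
  have k1 : c.1 (E 1) = nn 0 1 0 (c.1 (E' 3)) := by rw [← comm_nn hc]; congr 1; decide
  have k2 : c.1 (E 2) = -nn 0 1 0 (c.1 (E' 0)) := by
    rw [← comm_nn hc, ← _root_.map_neg]; congr 1; decide
  have k3 : c.1 (E 3) = -nn 0 1 0 (c.1 (E' 1)) := by
    rw [← comm_nn hc, ← _root_.map_neg]; congr 1; decide
  have h : ∀ j i, c.1 (E j) (.inr i) = 0 := by
    intro j i
    fin_cases j <;> fin_cases i <;> simp [k0, k1, k2, k3, nn]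
  refine ds_eq_one_iff.2 (mem_of_det c h ?_)
  have p : ∀ j k, polar Q8 (c.1 (E j)) (c.1 (E' k)) = polar Q8 (E j) (E' k) := fun j k =>
    O.map_polar c _ _
  have p1 := p 0 0
  have p2 := p 1 1
  have p3 := p 0 3
  have p4 := p 0 1
  rw [det_four]
  simp only [polar8, h, Matrix.of_apply] at p1 p2 p3 p4 ⊢
  generalize c.1 (E 0) = a0 at *
  generalize c.1 (E 1) = a1 at *
  generalize c.1 (E 2) = a2 at *
  generalize c.1 (E 3) = a3 at *
  simp [k0, k1, nn] at p1 p2 p3 p4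
  have w1 : a0 (.inl 0) * a2 (.inl 2) - a0 (.inl 2) * a2 (.inl 0) + a0 (.inl 1) * a2 (.inl 3) -
      a0 (.inl 3) * a2 (.inl 1) = 1 := by simp [k0, k2, nn]; linear_combination p1
  have w2 : a1 (.inl 0) * a3 (.inl 2) - a1 (.inl 2) * a3 (.inl 0) + a1 (.inl 1) * a3 (.inl 3) -
      a1 (.inl 3) * a3 (.inl 1) = 1 := by simp [k1, k3, nn]; linear_combination p2
  have w3 : a0 (.inl 0) * a1 (.inl 2) - a0 (.inl 2) * a1 (.inl 0) + a0 (.inl 1) * a1 (.inl 3) -
      a0 (.inl 3) * a1 (.inl 1) = 0 := by simp [k0, k1, nn]; linear_combination -p3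
  have w4 : a0 (.inl 0) * a3 (.inl 2) - a0 (.inl 2) * a3 (.inl 0) + a0 (.inl 1) * a3 (.inl 3) -
      a0 (.inl 3) * a3 (.inl 1) = 0 := by simp [k0, k3, nn]; linear_combination p4
  rw [w1, w2, w3, w4]
  ring

theorem cent_c_aux {c : O Q8} {b : K3} (hb : b * b = 1) (hc : Commute c (u 0 1 b)) :
    c.1 (E 1) = c.1 (E' 1) (.inr 1) • E 1 ∧ c.1 (E' 1) (.inr 1) * c.1 (E' 1) (.inr 1) = 1 ∧
      nn 0 1 b (c.1 (nv 1 (-b))) = 0 ∧
      c.1 (nv 1 (-b)) (.inl 3) * c.1 (nv 1 (-b)) (.inl 3) = 1 := by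
  have n2 : ∀ v, nn 0 1 b (nn 0 1 b v) = (b * v (.inr 1)) • E 1 := fun v => by
    refine ext8 ?_ ?_ ?_ ?_ ?_ ?_ ?_ ?_ <;> simp [nn]
    linear_combination (-b * v (.inr 1)) * h3
  have k1 : c.1 (E 1) = c.1 (E' 1) (.inr 1) • E 1 := by
    have := comm_nn hc (nn 0 1 b (E' 1))
    rw [comm_nn hc (E' 1), n2, n2, _root_.map_smul] at this
    have := congrArg (b • ·) this
    simpa [smul_smul, ← mul_assoc, hb] using this
  have k2 : nn 0 1 b (c.1 (nv 1 (-b))) = 0 := by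
    rw [← comm_nn hc, show nn 0 1 b (nv 1 (-b)) = 0 from ?_, _root_.map_zero]
    refine ext8 ?_ ?_ ?_ ?_ ?_ ?_ ?_ ?_ <;> simp [nn, nv]
  refine ⟨k1, ?_, k2, ?_⟩
  · have := O.map_polar c (E 1) (E' 1)
    rw [k1] at this
    simpa [polar8] using this
  · have h := O.map_Q c (nv 1 (-b))
    have a0 := congrFun k2 (.inl 0)
    have a1 := congrFun k2 (.inl 1)
    have a2 := congrFun k2 (.inl 2)
    have a3 := congrFun k2 (.inl 3)
    rw [Q_nv, Q8_apply] at h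
    generalize c.1 (nv 1 (-b)) = w at *
    simp [nn] at a0 a1 a2 a3
    rw [a0, a2, a3] at h
    rw [a3] at a1
    linear_combination (-b) * h + b * w (.inl 3) * a1 + (1 - w (.inl 3) * w (.inl 3)) * hb

theorem cent_c_core {c : O Q8} {b : K3} (hb : b * b = 1) (hc : Commute c (u 0 1 b))
    (h1 : c.1 (E' 1) (.inr 1) = 1) (h2 : c.1 (nv 1 (-b)) (.inl 3) = 1) : ds c = 1 := by
  obtain ⟨k1, -, kj, -⟩ := cent_c_aux hb hc
  rw [h1, one_smul] at k1
  have k0 : c.1 (E 0) = nn 0 1 b (c.1 (E' 2)) := by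
    rw [← comm_nn hc]; congr 1
    refine ext8 ?_ ?_ ?_ ?_ ?_ ?_ ?_ ?_ <;> simp [nn]
  have k2 : c.1 (E 2) = -nn 0 1 b (c.1 (E' 0)) := by
    rw [← comm_nn hc, ← _root_.map_neg]; congr 1
    refine ext8 ?_ ?_ ?_ ?_ ?_ ?_ ?_ ?_ <;> simp [nn]
  have k3 : c.1 (E 3) = nn 0 1 b (c.1 (E' 1)) + b • E 1 - c.1 (nv 1 (-b)) := by
    rw [← comm_nn hc, ← k1, ← _root_.map_smul, ← map_add, ← map_sub]; congr 1
    refine ext8 ?_ ?_ ?_ ?_ ?_ ?_ ?_ ?_ <;> simp [nn, nv]
    decide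
  have p0 : c.1 (E' 0) (.inr 1) = 0 := by
    have := O.map_polar c (E 1) (E' 0)
    rw [k1] at this
    simpa [polar8] using this
  have p2 : c.1 (E' 2) (.inr 1) = 0 := by
    have := O.map_polar c (E 1) (E' 2)
    rw [k1] at this
    simpa [polar8] using this
  have a0 := congrFun kj (.inl 0)
  have a1 := congrFun kj (.inl 1)
  have a2 := congrFun kj (.inl 2)
  have a3 := congrFun kj (.inl 3)
  simp [nn, h2] at a0 a1 a2 a3
  rw [a3] at a1
  have a4 : c.1 (nv 1 (-b)) (.inr 3) = -b := by linear_combination a1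
  have h : ∀ j i, c.1 (E j) (.inr i) = 0 := by
    intro j i
    fin_cases j <;> fin_cases i <;> simp [k0, k1, k2, k3, nn, p0, p2, a0, a2, a3, a4, h1]
  refine ds_eq_one_iff.2 (mem_of_det c h ?_)
  have p := O.map_polar c (E 0) (E' 0)
  have a5 : c.1 (E 3) (.inl 3) = 1 := by simp [k3, nn, h1, h2]; decide
  rw [det_four]
  simp only [Matrix.of_apply, a5]
  simp [polar8, k0, nn, p0, p2] at p
  simp [k0, k1, k2, nn, p0, p2]
  linear_combination p

theorem commute_refl {a x y : K3} {w : V8} (h0 : polar Q8 w e0 = 0) (h1 : polar Q8 w e1 = 0)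
    (h2 : polar Q8 w (mv a) = 0) (h4 : polar Q8 w (nv x y) = 0) : Commute (refl Q8 w) (u a x y) := by
  have : refl Q8 w * u a x y * (refl Q8 w)⁻¹ = u a x y := by
    rw [u, show ∀ g h k : O Q8, g * (h * k) * g⁻¹ = g * h * g⁻¹ * (g * k * g⁻¹) from
      fun _ _ _ => by group, conj_eich, conj_eich, refl_apply_of_perp h0, refl_apply_of_perp h1,
      refl_apply_of_perp h2, refl_apply_of_perp h4]
  exact mul_inv_eq_iff_eq_mul.1 this

theorem cent_c {c : O Q8} {b : K3} (hb : b * b = 1) (hc : Commute c (u 0 1 b)) :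
    ds c = 1 ∨ ds c = ds (refl Q8 (nv 1 (-b))) := by
  obtain ⟨-, h1, -, h2⟩ := cent_c_aux hb hc
  have hn : Commute (O.neg Q8) (u 0 1 b) := (Subgroup.mem_center_iff.1 neg_mem_center _).symm
  have hr : Commute (refl Q8 (nv 1 (-b))) (u 0 1 b) := by
    apply commute_refl <;> simp [polar8, e0, e1, mv, nv]
  have hQ : Q8 (nv 1 (-b)) ≠ 0 := by
    rw [Q_nv, one_mul, neg_ne_zero]; rintro rfl; simp at hb
  have r1 : (refl Q8 (nv 1 (-b))).1 (E' 1) = E' 1 := refl_apply_of_perp (by simp [polar8, nv])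
  have r2 := refl_apply_self hQ
  have rr : ds (refl Q8 (nv 1 (-b))) * ds (refl Q8 (nv 1 (-b))) = 1 := by
    rw [← map_mul, refl_mul_self, map_one]
  rcases mul_self_eq_one_iff.1 h1 with h1 | h1 <;> rcases mul_self_eq_one_iff.1 h2 with h2 | h2
  · exact Or.inl (cent_c_core hb hc h1 h2)
  · have := cent_c_core hb (hc.mul_left hr) (by rw [O.mul_apply, r1, h1])
      (by rw [O.mul_apply, r2, _root_.map_neg, Pi.neg_apply, h2, neg_neg])
    rw [map_mul, ← rr] at this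
    exact Or.inr (mul_right_cancel this)
  · have := cent_c_core hb ((hn.mul_left hc).mul_left hr)
      (by rw [O.mul_apply, O.mul_apply, r1, O.neg_apply, Pi.neg_apply, h1, neg_neg])
      (by rw [O.mul_apply, O.mul_apply, r2, O.neg_apply, _root_.map_neg, neg_neg, h2])
    rw [map_mul, map_mul, ds_neg, one_mul, ← rr] at this
    exact Or.inr (mul_right_cancel this)
  · have := cent_c_core hb (hn.mul_left hc)
      (by rw [O.mul_apply, O.neg_apply, Pi.neg_apply, h1, neg_neg])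
      (by rw [O.mul_apply, O.neg_apply, Pi.neg_apply, h2, neg_neg])
    rw [map_mul, ds_neg, one_mul] at this
    exact Or.inl this

end Cfsg.Lib.O8p3
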