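import Cfsg.Agent.Lib.O8p3.Orbits
import Cfsg.Agent.Lib.Orth.Triality
import Cfsg.Agent.Lib.Comp.GenFitting

/-! Classes of subgroups of order three of `PΩ⁺(8, 3)`. -/

set_option autoImplicit false

namespace Cfsg.Lib.O8p3

open Cfsg.Lib.Orth Equiv Subgroup

/-- Thirteen class representatives, with two automorphisms acting in the known way. -/
structure Cls {P : Type*} [Group P] (y : Fin 13 → P) : Prop where
  ord : ∀ i, orderOf (y i) = 3
  cover : ∀ p, orderOf p = 3 → ∃ i, IsConj p (y i)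
  inj : ∀ i j, IsConj (y i) (y j) → i = j
  inv : ∀ i, IsConj (y i) (y i)⁻¹
  a1 : ∃ α : MulAut P, ∀ i, IsConj (α (y i)) (y (pi1 i))
  a2 : ∃ α : MulAut P, ∀ i, IsConj (α (y i)) (y (pi2 i))

variable {P P' : Type*} [Group P] [Group P'] {y : Fin 13 → P}

theorem Cls.congr (h : Cls y) (e : P ≃* P') : Cls fun i => e (y i) := by
  have m : ∀ {a b : P}, IsConj a b → IsConj (e a) (e b) := fun H => e.toMonoidHom.map_isConj H
  refine ⟨fun i => by rw [e.orderOf_eq, h.ord], fun p hp => ?_, fun i j H => h.inj i j ?_,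
    fun i => by simpa using m (h.inv i), ?_, ?_⟩
  · obtain ⟨i, hi⟩ := h.cover (e.symm p) (by rw [e.symm.orderOf_eq, hp])
    exact ⟨i, by simpa using m hi⟩
  · simpa using e.symm.toMonoidHom.map_isConj H
  · obtain ⟨α, hα⟩ := h.a1
    exact ⟨MulAut.congr e α, fun i => by simpa using m (hα i)⟩
  · obtain ⟨α, hα⟩ := h.a2
    exact ⟨MulAut.congr e α, fun i => by simpa using m (hα i)⟩

/-- The representatives in `PΩ`. -/
noncomputable def yP (i : Fin 13) : PCom (O Q8) := (⟨U i, u_mem _ _ _⟩ : commutator (O Q8))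

theorem OC.mk {g h : commutator (O Q8)} (H : OC g h) : IsConj (g : PCom (O Q8)) h := by
  obtain ⟨w, hw, e⟩ := H
  refine (QuotientGroup.mk' _).map_isConj (isConj_iff.2 ⟨⟨w, hw⟩, Subtype.ext e⟩)

theorem sq_of_center {z : commutator (O Q8)} (hz : z ∈ center (commutator (O Q8))) : z ^ 2 = 1 := by
  rcases (mem_center_commutator_iff nd8 nexc8 (by rw [dim8]; omega)).1 hz with h | h
  · exact Subtype.ext (by simp [h])
  · exact Subtype.ext (by rw [coe_pow, h]; exact O.ext fun v => by simp [pow_two])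

theorem eq_of_mk_eq {g h : commutator (O Q8)} (hg : g ^ 3 = 1) (hh : h ^ 3 = 1)
    (e : (g : PCom (O Q8)) = h) : g = h := by
  rw [QuotientGroup.eq] at e
  have h1 : h = g * (g⁻¹ * h) := by group
  have h2 : Commute g (g⁻¹ * h) := mem_center_iff.1 e g
  have h4 : (g⁻¹ * h) ^ 3 = 1 := by rwa [h1, h2.mul_pow, hg, one_mul] at hh
  rw [pow_succ, sq_of_center e, one_mul] at h4
  exact inv_mul_eq_one.1 h4

theorem cls_yP : Cls yP := by
  have c : ∀ i, (⟨U i, u_mem _ _ _⟩ : commutator (O Q8)) ^ 3 = 1 := fun i =>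
    Subtype.ext (u_cube _ _ _)
  refine ⟨fun i => orderOf_eq_prime ?_ fun h => ?_, fun p hp => ?_, fun i j H => ?_, fun i => ?_,
    ⟨Gam.rho Q8 (Gam.ofO Q8 rp), fun i => ?_⟩, ⟨Gam.rho Q8 delta, fun i => ?_⟩⟩
  · rw [yP, ← QuotientGroup.mk_pow, c, QuotientGroup.mk_one]
  · exact u_ne_one _ _ _ (congrArg Subtype.val (eq_of_mk_eq (c i) (one_pow 3) h))
  · obtain ⟨g, rfl⟩ := QuotientGroup.mk_surjective p
    have h1 := pow_orderOf_eq_one (g : PCom (O Q8))
    rw [hp] at h1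
    have h2 : ((g ^ 4 : commutator (O Q8)) : PCom (O Q8)) = g := by
      rw [QuotientGroup.mk_pow, pow_succ, h1, one_mul]
    have h4 : (g ^ 4) ^ 3 = 1 := by
      rw [← QuotientGroup.mk_pow, QuotientGroup.eq_one_iff] at h1
      rw [← pow_mul, show 4 * 3 = 3 * 2 * 2 by rfl, pow_mul, pow_mul, sq_of_center h1, one_pow]
    obtain ⟨j, hj⟩ := cover_U (g := (g ^ 4 : commutator (O Q8))) (congrArg Subtype.val h4) fun h => by
      rw [← h2, show g ^ 4 = 1 from Subtype.ext h] at hp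
      simp at hp
    exact ⟨j, h2 ▸ OC.mk (h := ⟨U j, u_mem _ _ _⟩) hj⟩
  · obtain ⟨w, hw⟩ := isConj_iff.1 H
    obtain ⟨w, rfl⟩ := QuotientGroup.mk_surjective w
    have := eq_of_mk_eq (g := w * ⟨U i, u_mem _ _ _⟩ * w⁻¹) (by rw [conj_pow, c]; simp) (c j)
      (by rw [QuotientGroup.mk_mul, QuotientGroup.mk_mul, QuotientGroup.mk_inv]; exact hw)
    exact inj_U ⟨w, w.2, congrArg Subtype.val this⟩
  · exact OC.mk (g := ⟨U i, u_mem _ _ _⟩) (h := ⟨U i, u_mem _ _ _⟩⁻¹) (inv_U i)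
  · rw [yP, Gam.rho_mk]
    refine OC.mk ?_
    simpa [Gam.cj_ofO] using rp_U i
  · rw [yP, Gam.rho_mk]
    exact OC.mk (delta_U i)

theorem exists_cls : ∃ y : Fin 13 → POmega (ZMod 3) (quadFormPlus 4 (ZMod 3)), Cls y :=
  ⟨_, cls_yP.congr (pomegaEquiv Q8).symm⟩

theorem map_conj_zpowers {G : Type*} [Group G] (g a : G) :
    (zpowers a).map (MulAut.conj g).toMonoidHom = zpowers (g * a * g⁻¹) := by
  rw [MonoidHom.map_zpowers]; rfl

theorem eq_or_of_zpowers {G : Type*} [Group G] {a b : G} (hb : orderOf b = 3)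
    (h : zpowers a = zpowers b) : a = b ∨ a = b⁻¹ := by
  classical
  have ha : a ∈ zpowers b := h ▸ mem_zpowers a
  have h3 := pow_orderOf_eq_one b
  rw [(orderOf_pos_iff.1 (hb ▸ (by decide : 0 < 3))).mem_zpowers_iff_mem_range_orderOf, hb, Finset.mem_image] at ha
  obtain ⟨k, hk, rfl⟩ := ha
  rw [hb] at h3
  rw [Finset.mem_range] at hk
  interval_cases k
  · rw [pow_zero, zpowers_one_eq_bot, eq_comm, zpowers_eq_bot] at h
    simp [h] at hb
  · exact Or.inl (pow_one b)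
  · exact Or.inr (eq_inv_of_mul_eq_one_left (by rw [← pow_succ, h3]))

theorem exists_gen {G : Type*} [Group G] {X : Subgroup G} (hX : Nat.card X = 3) :
    ∃ a, orderOf a = 3 ∧ X = zpowers a := by
  have : IsCyclic X := isCyclic_of_prime_card hX
  obtain ⟨a, ha⟩ := (Subgroup.isCyclic_iff_exists_zpowers_eq_top X).1 this
  exact ⟨a, by rw [← Nat.card_zpowers, ha, hX], ha.symm⟩

theorem reps {G : Type*} [Group G] {n : ℕ} (L : Subgroup G) {z : Fin n → G} (h0 : ∀ i, z i ∈ L)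
    (h1 : ∀ i, orderOf (z i) = 3) (h2 : ∀ p ∈ L, orderOf p = 3 → ∃ i, IsConj p (z i))
    (h3 : ∀ i j, IsConj (z i) (z j) → i = j) (h4 : ∀ i, IsConj (z i) (z i)⁻¹) :
    ∃ Y : Fin n → Subgroup G, (∀ i, Y i ≤ L ∧ Nat.card (Y i) = 3) ∧
      (∀ i j, (∃ g : G, (Y i).map (MulAut.conj g).toMonoidHom = Y j) → i = j) ∧
      ∀ X : Subgroup G, X ≤ L → Nat.card X = 3 →
        ∃ i, ∃ g : G, X.map (MulAut.conj g).toMonoidHom = Y i := by
  refine ⟨fun i => zpowers (z i), fun i => ⟨zpowers_le_of_mem (h0 i), by rw [Nat.card_zpowers, h1]⟩,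
    fun i j ⟨g, hg⟩ => ?_, fun X hL hX => ?_⟩
  · rw [map_conj_zpowers] at hg
    rcases eq_or_of_zpowers (h1 j) hg with h | h
    · exact h3 i j (isConj_iff.2 ⟨g, h⟩)
    · exact h3 i j ((isConj_iff.2 ⟨g, h⟩).trans (h4 j).symm)
  · obtain ⟨a, ha, rfl⟩ := exists_gen hX
    obtain ⟨i, hi⟩ := h2 a (hL (mem_zpowers a)) ha
    obtain ⟨g, hg⟩ := isConj_iff.1 hi
    exact ⟨i, g, by rw [map_conj_zpowers, hg]⟩

theorem Cls.exists_rho (h : Cls y) : ∃ ρ : Cfsg.Out P →* Perm (Fin 13), ∀ (α : MulAut P) i j,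
    ρ α i = j ↔ IsConj (α (y i)) (y j) := by
  have c : ∀ (α : MulAut P) i, ∃ j, IsConj (α (y i)) (y j) := fun α i =>
    h.cover _ (by rw [MulEquiv.orderOf_eq, h.ord])
  choose f hf using c
  have u : ∀ (α : MulAut P) i j, f α i = j ↔ IsConj (α (y i)) (y j) := fun α i j =>
    ⟨fun e => e ▸ hf α i, fun H => h.inj _ _ ((hf α i).symm.trans H)⟩
  let F : MulAut P →* Function.End (Fin 13) :=
    { toFun := f
      map_one' := funext fun i => (u 1 i i).2 (IsConj.refl _)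
      map_mul' := fun α β => funext fun i => (u _ _ _).2
        ((α.toMonoidHom.map_isConj (hf β i)).trans (hf α _)) }
  refine ⟨QuotientGroup.lift _ F.toHomPerm ?_, u⟩
  rintro _ ⟨g, rfl⟩
  exact Equiv.ext fun i => (u _ i i).2 (isConj_iff.2 ⟨g, rfl⟩).symm

theorem Cls.orbits {G : Type*} [Group G] {L : Subgroup G} [L.Normal] {y : Fin 13 → L} (h : Cls y)
    (hC : centralizer (L : Set G) ≤ L) (eO : Cfsg.Out L ≃* Perm (Fin 4))
    (eq : G ⧸ L ≃* Perm (Fin 3)) :
    ∃ Y : Fin 7 → Subgroup G, (∀ i, Y i ≤ L ∧ Nat.card (Y i) = 3) ∧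
      (∀ i j, (∃ g : G, (Y i).map (MulAut.conj g).toMonoidHom = Y j) → i = j) ∧
      ∀ X : Subgroup G, X ≤ L → Nat.card X = 3 →
        ∃ i, ∃ g : G, X.map (MulAut.conj g).toMonoidHom = Y i := by
  obtain ⟨ρ, hρ⟩ := h.exists_rho
  obtain ⟨α, hα⟩ := h.a1
  obtain ⟨β, hβ⟩ := h.a2
  let κ : G →* Cfsg.Out L := (QuotientGroup.mk' _).comp MulAut.conjNormal
  have hκ : ∀ g, κ g = 1 ↔ g ∈ L := fun g => by
    change ((MulAut.conjNormal g : MulAut L) : Cfsg.Out L) = 1 ↔ _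
    rw [QuotientGroup.eq_one_iff]
    constructor
    · rintro ⟨l, hl⟩
      have : (l : G)⁻¹ * g ∈ L := hC fun x hx => by
        have := congrArg (fun a : MulAut L => (a ⟨x, hx⟩ : G)) hl
        simp only [MulAut.conj_apply, coe_mul, coe_inv, MulAut.conjNormal_apply] at this
        calc x * ((l : G)⁻¹ * g) = (l : G)⁻¹ * (l * x * (l : G)⁻¹) * g := by group
          _ = _ := by rw [this]; group
      simpa using L.mul_mem l.2 this
    · intro hg
      exact ⟨⟨g, hg⟩, MulEquiv.ext fun x => Subtype.ext (by simp)⟩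
  let κ' : G ⧸ L →* Cfsg.Out L := QuotientGroup.lift _ κ fun g hg => (hκ g).2 hg
  have hκ' : Function.Injective κ' := by
    rw [injective_iff_map_eq_one]
    intro q hq
    obtain ⟨g, rfl⟩ := QuotientGroup.mk_surjective q
    exact (QuotientGroup.eq_one_iff g).2 ((hκ g).1 hq)
  obtain ⟨r, hr, hr'⟩ := exists_reps (φ := ρ.comp eO.symm.toMonoidHom) (x := eO α) (y := eO β)
    (Equiv.ext fun i => by simpa using (hρ α i _).2 (hα i))
    (Equiv.ext fun i => by simpa using (hρ β i _).2 (hβ i))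
    (θ := eO.toMonoidHom.comp (κ'.comp eq.symm.toMonoidHom))
    (eO.injective.comp (hκ'.comp eq.symm.injective))
  have key : ∀ i j, (∃ s, (ρ.comp eO.symm.toMonoidHom)
      ((eO.toMonoidHom.comp (κ'.comp eq.symm.toMonoidHom)) s) i = j) ↔ IsConj (y i : G) (y j) := by
    intro i j
    constructor
    · rintro ⟨s, hs⟩
      obtain ⟨g, hg⟩ := QuotientGroup.mk_surjective (eq.symm s)
      have : ρ (κ' g) i = j := by simpa [← hg] using hs
      exact (isConj_iff.2 ⟨g, (MulAut.conjNormal_apply g (y i)).symm⟩).trans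
        (L.subtype.map_isConj ((hρ _ _ _).1 this))
    · intro H
      obtain ⟨g, hg⟩ := isConj_iff.1 H
      refine ⟨eq g, ?_⟩
      have : ρ (κ' g) i = j := (hρ (MulAut.conjNormal g) i j).2 (by
        rw [show MulAut.conjNormal g (y i) = y j from Subtype.ext (by simpa using hg)])
      simpa using this
  refine reps L (z := fun a => y (r a)) (fun a => (y (r a)).2)
    (fun a => by rw [orderOf_coe, h.ord]) (fun p hp h3 => ?_) (fun a b H => hr a b ((key _ _).2 H))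
    fun a => L.subtype.map_isConj (h.inv _)
  obtain ⟨i, hi⟩ := h.cover ⟨p, hp⟩ (by rw [← orderOf_coe, h3])
  obtain ⟨a, ha⟩ := hr' i
  exact ⟨a, (L.subtype.map_isConj hi).trans ((key _ _).1 ha)⟩

theorem nonempty_out : Nonempty (Cfsg.Out (POmega (ZMod 3) (quadFormPlus 4 (ZMod 3))) ≃* Perm (Fin 4)) := by
  obtain ⟨e⟩ := nonempty_out_eight_odd (F := ZMod 3) (by rw [ZMod.card]; decide)
  have : Nat.card (ZMod 3 ≃+* ZMod 3) = 1 := Nat.card_unique
  rw [this] at e
  exact ⟨e.trans MulEquiv.prodUnique⟩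

end Cfsg.Lib.O8p3
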