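import Cfsg.Agent.Lib.O8p3.Classes

/-! An action of `S₄` on the thirteen classes: orbits of a subgroup `S₃`. -/

set_option autoImplicit false

namespace Cfsg.Lib.O8p3

open Equiv

/-- Double transpositions. -/
abbrev Dbl (a : Perm (Fin 4)) : Prop := a * a = 1 ∧ ∀ i, a i ≠ i

theorem s4_1 : ∀ k : Perm (Fin 4), k ≠ 1 →
    ∃ g : Perm (Fin 4), Dbl (k * (g * k * g⁻¹)) ∨ Dbl (k * (g * k⁻¹ * g⁻¹)) := by decide +kernel
theorem s4_2 : ∀ a b : Perm (Fin 4), Dbl a → Dbl b → ∃ g, g * a * g⁻¹ = b := by decide +kernel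
theorem s4_3 : ∀ a : Perm (Fin 4), a ^ 2 = 1 ∨ a ^ 3 = 1 ∨ Dbl (a ^ 2) := by decide +kernel
theorem s4_4 : ∀ x y : Perm (Fin 4), x * x = 1 → y * y = 1 → (x * y) ^ 2 ≠ 1 → (x * y) ^ 3 ≠ 1 →
    Dbl ((x * y) ^ 2) ∧ (Dbl x ∨ (Dbl y ∧ ¬ Dbl x ∧ x ≠ 1 ∧ y ≠ (x * y) ^ 2)) := by decide +kernel
theorem s4_5 : ∀ a : Perm (Fin 4), a * a = 1 → a ≠ 1 → ¬ Dbl a → ∀ b : Perm (Fin 4),
    b * b = 1 → b ≠ 1 → ¬ Dbl b → ∃ g, g * a * g⁻¹ = b := by decide +kernel
theorem s4_6 : ∀ a b : Perm (Fin 4), a * a = 1 → b * b = 1 → (a * b) ^ 3 = 1 → a * b ≠ 1 →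
    ¬ Dbl a ∧ a ≠ 1 := by decide +kernel
set_option synthInstance.maxSize 1024 in
theorem s4_7 : ∀ y : Perm (Fin 4), Dbl y → ∀ z : Perm (Fin 4), Dbl z → y ≠ z → ∀ c : Perm (Fin 4),
    c ^ 3 = 1 → c ≠ 1 → (c * y * c⁻¹ = z ∧ c * z * c⁻¹ = y * z) ∨
      (c * y * c⁻¹ = y * z ∧ c * z * c⁻¹ = y) := by decide +kernel
set_option synthInstance.maxSize 1024 in
theorem s4_8 : ∀ y : Perm (Fin 4), Dbl y → ∀ z : Perm (Fin 4), Dbl z → y ≠ z → ∀ v : Perm (Fin 4),
    Dbl v → v = y ∨ v = z ∨ v = y * z := by decide +kernel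
theorem s4_9 : ∀ v : Perm (Fin 4), Dbl v → ∀ g : Perm (Fin 4), Dbl (g * v * g⁻¹) := by
  decide +kernel
theorem s3_1 : ∀ s : Perm (Fin 3), s = 1 ∨ (s ≠ 1 ∧ s * s = 1 ∧ ∃ t : Perm (Fin 3), t * t = 1 ∧
    (s * t) ^ 3 = 1 ∧ s * t ≠ 1) ∨ (s ≠ 1 ∧ s * s ≠ 1 ∧ s ^ 3 = 1 ∧ ∃ a b : Perm (Fin 3), a ≠ 1 ∧
      a * a = 1 ∧ b ≠ 1 ∧ b * b = 1 ∧ s = a * b) := by decide +kernel

section
variable {φ : Perm (Fin 4) →* Perm (Fin 13)} {x y : Perm (Fin 4)} (hx : φ x = pi1) (hy : φ y = pi2)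
include hx hy

theorem phi_injective : Function.Injective φ := by
  rw [injective_iff_map_eq_one]
  intro k hk
  by_contra h1
  obtain ⟨v, hv, hv1⟩ : ∃ v, Dbl v ∧ φ v = 1 := by
    obtain ⟨g, h | h⟩ := s4_1 k h1
    exacts [⟨_, h, by simp [hk]⟩, ⟨_, h, by simp [hk]⟩]
  have : (pi1 * pi2) ^ 2 = 1 ∨ (pi1 * pi2) ^ 3 = 1 := by
    rw [← hx, ← hy, ← map_mul, ← map_pow, ← map_pow]
    rcases s4_3 (x * y) with h | h | h
    · exact Or.inl (by rw [h, map_one])
    · exact Or.inr (by rw [h, map_one])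
    · obtain ⟨g, hg⟩ := s4_2 _ _ hv h
      exact Or.inl (by rw [← hg]; simp [hv1])
  revert this
  decide +kernel

theorem phi_facts : Dbl ((x * y) ^ 2) ∧ Dbl y ∧ ¬ Dbl x ∧ x ≠ 1 ∧ y ≠ (x * y) ^ 2 ∧ x * x = 1 := by
  have inj := phi_injective hx hy
  have h1 : x * x = 1 := inj (by rw [map_mul, hx, map_one]; decide +kernel)
  obtain ⟨h, h'⟩ := s4_4 x y h1 (inj (by rw [map_mul, hy, map_one]; decide +kernel))
    (fun h => by
      have := congrArg φ h
      rw [map_pow, map_mul, hx, hy, map_one] at this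
      revert this; decide +kernel)
    (fun h => by
      have := congrArg φ h
      rw [map_pow, map_mul, hx, hy, map_one] at this
      revert this; decide +kernel)
  rcases h' with h' | ⟨a, b, c, d⟩
  · obtain ⟨g, hg⟩ := s4_2 _ _ h' h
    have := congrArg (fun a => (φ a).support.card) hg
    simp only [map_mul, map_inv, map_pow, Perm.card_support_conj, hx, hy] at this
    exact absurd this (by decide +kernel)
  · exact ⟨h, a, b, c, d, h1⟩

theorem card_swap {t : Perm (Fin 4)} (h1 : t * t = 1) (h2 : t ≠ 1) (h3 : ¬ Dbl t) :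
    (φ t).supportᶜ.card = 7 ∧ φ t 0 = 0 ∧ φ t 11 = 11 ∧ φ t 12 = 12 := by
  obtain ⟨hz, hy', hx', hx1, hyz, hx2⟩ := phi_facts hx hy
  obtain ⟨g, rfl⟩ := s4_5 x hx2 hx1 hx' t h1 h2 h3
  have key : ∀ i, (i = 0 ∨ i = 11 ∨ i = 12) ↔ ∀ v, Dbl v → φ v i = i := fun i => by
    constructor
    · intro hi v hv
      rcases s4_8 y hy' _ hz hyz v hv with rfl | rfl | rfl <;>
        simp only [map_mul, map_pow, hx, hy] <;> rcases hi with rfl | rfl | rfl <;> decide +kernel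
    · intro h
      have a := h _ hy'
      have b := h _ hz
      rw [map_pow, map_mul, hx, hy] at b
      rw [hy] at a
      clear h
      revert a b i
      decide +kernel
  have key' : ∀ i, (i = 0 ∨ i = 11 ∨ i = 12) → φ (g * x * g⁻¹) i = i := fun i hi => by
    have : (φ g)⁻¹ i = 0 ∨ (φ g)⁻¹ i = 11 ∨ (φ g)⁻¹ i = 12 := (key _).2 fun v hv => by
      have := (key i).1 hi _ (s4_9 v hv g)
      rw [map_mul, map_mul, map_inv, Perm.mul_apply, Perm.mul_apply] at this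
      exact Perm.eq_inv_iff_eq.2 this
    have h : pi1 ((φ g)⁻¹ i) = (φ g)⁻¹ i := by
      rcases this with h | h | h <;> rw [h] <;> decide +kernel
    rw [map_mul, map_mul, map_inv, Perm.mul_apply, Perm.mul_apply, hx, h]
    simp
  refine ⟨?_, key' _ (by simp), key' _ (by simp), key' _ (by simp)⟩
  rw [Finset.card_compl, map_mul, map_mul, map_inv, Perm.card_support_conj, hx]
  decide +kernel

theorem card_three {c : Perm (Fin 4)} (h1 : c ^ 3 = 1) (h2 : c ≠ 1) (f0 : φ c 0 = 0)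
    (f1 : φ c 11 = 11) (f2 : φ c 12 = 12) : (φ c).supportᶜ.card = 4 := by
  obtain ⟨hz, hy', -, -, hyz, -⟩ := phi_facts hx hy
  have hm := Perm.card_compl_support_modEq (p := 3) (n := 1) (σ := φ c)
    (by rw [pow_one, ← map_pow, h1, map_one])
  have key : ∀ v i j, φ c i = i → φ c j = j → (φ v i = j ↔ φ (c * v * c⁻¹) i = j) := by
    intro v i j hi hj
    rw [map_mul, map_mul, map_inv, Perm.mul_apply, Perm.mul_apply, Perm.inv_eq_iff_eq.2 hi.symm]
    nth_rewrite 2 [← hj]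
    exact (φ c).injective.eq_iff.symm
  have R : ∀ i j, φ c i = i → φ c j = j → (pi2 i = j ↔ ((pi1 * pi2) ^ 2) i = j) ∧
      (pi2 i = j ↔ (pi2 * (pi1 * pi2) ^ 2) i = j) := by
    intro i j hi hj
    have a := key y i j hi hj
    have b := key ((x * y) ^ 2) i j hi hj
    rcases s4_7 y hy' _ hz hyz c h1 h2 with ⟨e, e'⟩ | ⟨e, e'⟩ <;> rw [e] at a <;> rw [e'] at b <;>
      simp only [map_mul, map_pow, hx, hy] at a b
    · exact ⟨a, a.trans b⟩
    · exact ⟨b.symm, a⟩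
  have hs : ({0, 11, 12} : Finset (Fin 13)) ⊆ (φ c).supportᶜ := by
    intro i hi
    simp only [Finset.mem_insert, Finset.mem_singleton] at hi
    rcases hi with rfl | rfl | rfl <;> simpa
  have hl : ((φ c).supportᶜ \ {0, 11, 12}).card ≤ 1 := by
    rw [Finset.card_le_one]
    intro i hi j hj
    simp only [Finset.mem_sdiff, Finset.mem_compl, Perm.mem_support, not_not] at hi hj
    have a := R i i hi.1 hi.1
    have b := R j j hj.1 hj.1
    have c := R i j hi.1 hj.1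
    have d := hi.2
    have e := hj.2
    clear hi hj
    revert i j
    decide +kernel
  have := Finset.card_sdiff_add_card_eq_card hs
  rw [show ({0, 11, 12} : Finset (Fin 13)).card = 3 by decide] at this
  rw [Fintype.card_fin, Nat.ModEq] at hm
  omega

theorem exists_reps {θ : Perm (Fin 3) →* Perm (Fin 4)} (hθ : Function.Injective θ) :
    ∃ r : Fin 7 → Fin 13, (∀ a b, (∃ s, φ (θ s) (r a) = r b) → a = b) ∧
      ∀ i, ∃ a s, φ (θ s) i = r a := by
  classical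
  have sw : ∀ s : Perm (Fin 3), s ≠ 1 → s * s = 1 → (φ (θ s)).supportᶜ.card = 7 ∧
      φ (θ s) 0 = 0 ∧ φ (θ s) 11 = 11 ∧ φ (θ s) 12 = 12 := by
    intro s h1 h2
    rcases s3_1 s with h | ⟨-, -, t, h3, h4, h5⟩ | h
    · exact absurd h h1
    · have a : θ s * θ s = 1 := by rw [← map_mul, h2, map_one]
      have := s4_6 (θ s) (θ t) a (by rw [← map_mul, h3, map_one])
        (by rw [← map_mul, ← map_pow, h4, map_one])
        (by rw [← map_mul]; exact fun h => h5 (hθ (h.trans (map_one θ).symm)))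
      exact card_swap hx hy a this.2 this.1
    · exact absurd h2 h.2.1
  have cnt : ∀ s : Perm (Fin 3), (φ (θ s)).supportᶜ.card =
      if s = 1 then 13 else if s * s = 1 then 7 else 4 := by
    intro s
    rcases s3_1 s with rfl | ⟨h1, h2, -⟩ | ⟨h1, h2, h3, a, b, a1, a2, b1, b2, rfl⟩
    · simp
    · rw [if_neg h1, if_pos h2, (sw s h1 h2).1]
    · rw [if_neg h1, if_neg h2]
      obtain ⟨-, p1, p2, p3⟩ := sw a a1 a2
      obtain ⟨-, q1, q2, q3⟩ := sw b b1 b2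
      refine card_three hx hy (by rw [← map_pow, h3, map_one])
        (fun h => h1 (hθ (h.trans (map_one θ).symm))) ?_ ?_ ?_ <;>
        simp only [map_mul, Perm.mul_apply, p1, p2, p3, q1, q2, q3]
  let _ : MulAction (Perm (Fin 3)) (Fin 13) := MulAction.compHom _ (φ.comp θ)
  have sm : ∀ (s : Perm (Fin 3)) (i : Fin 13), s • i = φ (θ s) i := fun _ _ => rfl
  have B := MulAction.sum_card_fixedBy_eq_card_orbits_mul_card_group (Perm (Fin 3)) (Fin 13)
  have : ∀ s : Perm (Fin 3), Fintype.card (MulAction.fixedBy (Fin 13) s) =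
      if s = 1 then 13 else if s * s = 1 then 7 else 4 := by
    intro s
    rw [← cnt, ← Set.toFinset_card]
    congr 1
    ext i
    simp [sm]
  rw [Finset.sum_congr rfl fun s _ => this s, Fintype.card_perm, Fintype.card_fin,
    show (∑ s : Perm (Fin 3), if s = 1 then 13 else if s * s = 1 then 7 else 4) = 42 by
      decide +kernel] at B
  have hc : Fintype.card (Quotient (MulAction.orbitRel (Perm (Fin 3)) (Fin 13))) = 7 := by
    simp only [Nat.factorial] at B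
    omega
  let e := Fintype.equivFinOfCardEq hc
  refine ⟨fun a => (e.symm a).out, fun a b ⟨s, hs⟩ => ?_, fun i => ⟨e (Quotient.mk _ i), ?_⟩⟩
  · apply e.symm.injective
    rw [← (e.symm a).out_eq, ← (e.symm b).out_eq]
    exact (Quotient.sound (MulAction.orbitRel_apply.2 ⟨s, hs⟩)).symm
  · simp only [Equiv.symm_apply_apply]
    exact Quotient.exact (Quotient.out_eq (Quotient.mk (MulAction.orbitRel (Perm (Fin 3)) (Fin 13)) i))

end

end Cfsg.Lib.O8p3
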