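import Cfsg.Agent.Lib.Orth.Spinor

/-! Elements of order three of an orthogonal group in characteristic three are products of
commuting Eichler transformations. -/

set_option autoImplicit false

namespace Cfsg.Lib.O8p3

open QuadraticMap Module Cfsg.Lib.Orth

variable {F V : Type*} [Field F] [AddCommGroup V] [Module F V] {Q : QuadraticForm F V}

/-- One step: `g = eich e m * g'`, with test vectors `p`, `q`. -/
structure Step (g : O Q) (e m p q : V) (g' : O Q) : Prop where
  Qe : Q e = 0
  em : polar Q e m = 0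
  perp : ∀ x, g.1 x = x → polar Q e x = 0 ∧ polar Q m x = 0
  ep : polar Q e p ≠ 0
  eq : polar Q e q = 0
  mq : polar Q m q ≠ 0
  mul : g = eich Q e m * g'
  cube : g' ^ 3 = 1
  fe : g'.1 e = e
  fm : g'.1 m = m
  fp : g'.1 p = p
  fq : g'.1 q = q
  fix : ∀ x, g.1 x = x → g'.1 x = x

theorem eich_cube (h3 : (3 : F) = 0) (e m : V) : eich Q e m ^ 3 = 1 := by
  by_cases h : Q e = 0 ∧ polar Q e m = 0
  · have h2 : polar Q e (m + m) = 0 := by simp [h.2]
    rw [pow_succ, pow_two, ← eich_add h.1 h.2 h.2, ← eich_add h.1 h2 h.2,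
      show m + m + m = (3 : F) • m by module, h3, zero_smul, eich_zero]
  · rw [eich_of_not h, one_pow]

theorem step_of (h3 : (3 : F) = 0) {g : O Q} (hg : g ^ 3 = 1) {e m p q : V} {c : F} (Qe : Q e = 0)
    (em : polar Q e m = 0) (he : ∃ x, e = g.1 x - x) (hm : ∃ x, m = g.1 x - x)
    (ep : polar Q e p ≠ 0) (eq : polar Q e q = 0) (mq : polar Q m q ≠ 0) (ge : g.1 e = e)
    (gm : g.1 m = m + c • e) (em' : (eich Q e m).1 m = g.1 m) (ep' : (eich Q e m).1 p = g.1 p)
    (eq' : (eich Q e m).1 q = g.1 q) : Step g e m p q ((eich Q e m)⁻¹ * g) := by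
  have key : ∀ x, (eich Q e m).1 x = g.1 x → ((eich Q e m)⁻¹ * g).1 x = x := fun x h => by
    rw [O.mul_apply, ← h, O.inv_apply_apply]
  have hp : ∀ x, g.1 x = x → ∀ y, polar Q (g.1 y - y) x = 0 := fun x hx y => by
    rw [polar_sub_left]
    nth_rewrite 1 [← hx]
    rw [O.map_polar, sub_self]
  have hp' : ∀ x, g.1 x = x → polar Q e x = 0 ∧ polar Q m x = 0 := fun x hx => by
    obtain ⟨y, rfl⟩ := he
    obtain ⟨z, rfl⟩ := hm
    exact ⟨hp x hx y, hp x hx z⟩
  have hc : Commute (eich Q e m) g := by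
    have := conj_eich g e m
    rw [ge, gm, eich_add_smul_self Qe em] at this
    exact (mul_inv_eq_iff_eq_mul.1 this).symm
  refine ⟨Qe, em, hp', ep, eq, mq, (mul_inv_cancel_left _ _).symm, ?_, key _ ?_, key _ em',
    key _ ep', key _ eq', fun x hx => key _ ?_⟩
  · rw [hc.inv_left.mul_pow, inv_pow, eich_cube h3, hg, inv_one, one_mul]
  · rw [eich_apply_self Qe em, ge]
  · rw [eich_apply Qe em, (hp' x hx).1, (hp' x hx).2, hx]
    simp

theorem two_ne (h3 : (3 : F) = 0) : (2 : F) ≠ 0 := fun h =>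
  one_ne_zero (α := F) (by linear_combination h3 - h)

theorem exists_step (hQ : ND Q) (h3 : (3 : F) = 0) {g : O Q} (hg : g ^ 3 = 1) (h1 : g ≠ 1) :
    ∃ e m p q g', Step g e m p q g' := by
  have h2 := two_ne h3
  have hQ0 : ∀ x, polar Q x x = 0 → Q x = 0 := fun x hx => by
    rw [polar_self'] at hx
    exact (mul_eq_zero.1 hx).resolve_left h2
  have g3 : ∀ x, g.1 (g.1 (g.1 x)) = x := fun x => by
    have := congrArg (fun k : O Q => k.1 x) hg
    simpa only [pow_succ, pow_zero, one_mul, O.mul_apply, O.one_apply] using this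
  -- `N = g - 1`
  let N : V →ₗ[F] V := (g.1 : V →ₗ[F] V) - LinearMap.id
  have hN : ∀ x, N x = g.1 x - x := fun x => rfl
  have gN : ∀ x, g.1 x = x + N x := fun x => by rw [hN]; abel
  have N3 : ∀ x, N (N (N x)) = 0 := fun x => by
    simp only [hN, map_sub, g3]
    rw [show x - g.1 (g.1 x) - (g.1 (g.1 x) - g.1 x) - (g.1 (g.1 x) - g.1 x - (g.1 x - x)) =
      (3 : F) • (g.1 x - g.1 (g.1 x)) + (x - x) + (2 : F) • x - (2 : F) • x + (0 : F) • x by module, h3]
    simp
  -- adjoint
  have adj : ∀ x y, polar Q (N x) y = polar Q x (N (N y)) - polar Q x (N y) := fun x y => by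
    have h := O.map_polar g x (y - N y + N (N y))
    have h' : g.1 (y - N y + N (N y)) = y := by
      rw [gN, map_add, map_sub, N3]; abel
    rw [h', gN x, polar_add_left, polar_add_right, polar_sub_right] at h
    linear_combination h
  by_cases hN2 : ∀ x, N (N x) = 0
  · obtain ⟨x, hx⟩ : ∃ x, N x ≠ 0 := by
      by_contra! h
      exact h1 (O.ext fun v => by rw [gN, h, add_zero, O.one_apply])
    obtain ⟨y, hy⟩ := hQ.exists_polar_ne hx
    obtain ⟨y, hy⟩ : ∃ y, polar Q (N x) y = 1 :=
      ⟨(polar Q (N x) y)⁻¹ • y, by rw [polar_smul_right', inv_mul_cancel₀ hy]⟩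
    have adj' : ∀ x y, polar Q (N x) y = -polar Q x (N y) := fun x y => by
      rw [adj, hN2]; simp
    have a0 : ∀ x y, polar Q (N x) (N y) = 0 := fun x y => by rw [adj', hN2]; simp
    have a1 : ∀ x, polar Q (N x) x = 0 := fun x => by
      have := adj' x x
      rw [polar_comm Q x] at this
      exact (mul_eq_zero.1 (show 2 * polar Q (N x) x = 0 by linear_combination this)).resolve_left h2
    have a2 : polar Q (N y) x = -1 := by rw [adj', polar_comm, hy]
    have Qe : Q (N x) = 0 := hQ0 _ (a0 _ _)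
    have Qm : Q (-N y) = 0 := by rw [Q.map_neg]; exact hQ0 _ (a0 _ _)
    have em : polar Q (N x) (-N y) = 0 := by simp [a0]
    refine ⟨N x, -N y, y, x, _, step_of (c := 0) h3 hg Qe em ⟨x, rfl⟩ ⟨-y, by rw [← hN, map_neg]⟩
      (by simp [hy]) (a1 x) (by simp [a2]) (by rw [gN, hN2, add_zero]) ?_ ?_ ?_ ?_⟩
    · rw [gN, map_neg, hN2]; simp
    · rw [eich_apply Qe em, gN, Qm, N.map_neg, hN2, em, polar_self', Qm]; simp
    · rw [eich_apply Qe em, gN, Qm]; simp [a1, hy]
    · rw [eich_apply Qe em, gN, Qm]; simp [a1, a2]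
  · have adj2 : ∀ x y, polar Q (N (N x)) y = polar Q x (N (N y)) := fun x y => by
      rw [adj, adj, adj, N3, N3]; simp
    obtain ⟨v, hv⟩ : ∃ v, polar Q (N (N v)) v ≠ 0 := by
      by_contra! h
      refine hN2 fun x => hQ.eq_zero fun y => ?_
      have h' := h (x + y)
      rw [map_add, map_add, polar_add_left, polar_add_right, polar_add_right, h, h, adj2 y,
        polar_comm Q y] at h'
      exact (mul_eq_zero.1 (show 2 * polar Q (N (N x)) y = 0 by
        linear_combination h')).resolve_left h2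
    set b := polar Q (N (N v)) v with hb
    have a0 : polar Q (N (N v)) (N (N v)) = 0 := by rw [adj2, N3]; simp
    have a1 : polar Q (N (N v)) (N v) = 0 := by rw [adj2, N3]; simp
    have a2 : polar Q (N v) (N v) = -b := by rw [adj, N3, polar_comm Q v (N (N v))]; simp [hb]
    have a3 : polar Q (N v) v = -b := by
      have := adj v v
      rw [polar_comm Q v, polar_comm Q v] at this
      linear_combination (-1 : F) * this + (polar Q (N v) v) * h3
    have a4 : Q (N v) = b := by
      rw [polar_self'] at a2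
      linear_combination (-1 : F) * a2 + Q (N v) * h3
    have Qe : Q (N (N v)) = 0 := hQ0 _ a0
    have em : polar Q (N (N v)) ((-b⁻¹) • N v) = 0 := by rw [polar_smul_right', a1, mul_zero]
    have mm : polar Q ((-b⁻¹) • N v) ((-b⁻¹) • N v) = -b⁻¹ := by
      rw [polar_smul_right', polar_smul_left', a2]; field_simp
    have gm : g.1 ((-b⁻¹) • N v) = (-b⁻¹) • N v + (-b⁻¹) • N (N v) := by rw [gN, map_smul]
    have em' : (eich Q (N (N v)) ((-b⁻¹) • N v)).1 ((-b⁻¹) • N v) = g.1 ((-b⁻¹) • N v) := by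
      rw [eich_apply_of_perp Qe em em, mm, gm]
    refine ⟨N (N v), (-b⁻¹) • N v, v, (-b⁻¹) • N v, _, step_of h3 hg Qe em ⟨N v, rfl⟩
      ⟨(-b⁻¹) • v, by rw [← hN, map_smul]⟩ hv em (by rw [mm]; simpa using hv)
      (by rw [gN, N3, add_zero]) gm em' ?_ em'⟩
    rw [eich_apply Qe em, gN, polar_smul_left', a3, Q_smul, a4, ← hb, smul_smul]
    rw [show -b⁻¹ * -b = 1 by field_simp, show b * -b⁻¹ = -1 by field_simp,
      show (-b⁻¹) ^ 2 * b * b = 1 by field_simp]
    module

theorem Step.indep {g g' : O Q} {e m p q : V} (s : Step g e m p q g') {a b : F} {w : V}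
    (hw : ∀ x, g'.1 x = x → polar Q w x = 0) (h : a • e + b • m + w = 0) :
    a = 0 ∧ b = 0 ∧ w = 0 := by
  have hq := congrArg (fun x => polar Q x q) h
  have hp := congrArg (fun x => polar Q x p) h
  simp only [polar_add_left, polar_smul_left', s.eq, hw _ s.fq, hw _ s.fp, mul_zero, zero_add,
    add_zero, polar_zero_left] at hq hp
  have hb := (mul_eq_zero.1 hq).resolve_right s.mq
  rw [hb, zero_mul, add_zero] at hp
  have ha := (mul_eq_zero.1 hp).resolve_right s.ep
  rw [ha, hb] at h
  exact ⟨ha, hb, by simpa using h⟩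

theorem Step.comb {g g' : O Q} {e m p q : V} (s : Step g e m p q g') (a b : F) {x : V}
    (hx : g.1 x = x) : polar Q (a • e + b • m) x = 0 := by
  rw [polar_add_left, polar_smul_left', polar_smul_left', (s.perp x hx).1, (s.perp x hx).2]
  simp

/-- Data of a product of two commuting Eichler transformations. -/
structure Tup (Q : QuadraticForm F V) (e m e' m' : V) : Prop where
  li : LinearIndependent F ![e, m, e', m']
  Qe : Q e = 0
  Qe' : Q e' = 0
  em : polar Q e m = 0
  ee' : polar Q e e' = 0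
  em' : polar Q e m' = 0
  me' : polar Q m e' = 0
  mm' : polar Q m m' = 0
  e'm' : polar Q e' m' = 0

theorem decomp [FiniteDimensional F V] (hQ : ND Q) (h3 : (3 : F) = 0) (hV : finrank F V = 8)
    {g : O Q} (hg : g ^ 3 = 1) (h1 : g ≠ 1) :
    (∃ e m, LinearIndependent F ![e, m] ∧ Q e = 0 ∧ polar Q e m = 0 ∧ g = eich Q e m) ∨
      ∃ e m e' m', Tup Q e m e' m' ∧ g = eich Q e m * eich Q e' m' := by
  obtain ⟨e, m, p, q, g', s⟩ := exists_step hQ h3 hg h1
  by_cases h2 : g' = 1
  · refine Or.inl ⟨e, m, ?_, s.Qe, s.em, by rw [s.mul, h2, mul_one]⟩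
    rw [LinearIndependent.pair_iff]
    intro a b h
    have := s.indep (a := a) (b := b) (w := 0) (by simp) (by simpa using h)
    exact ⟨this.1, this.2.1⟩
  obtain ⟨e', m', p', q', g'', s'⟩ := exists_step hQ h3 s.cube h2
  have c1 := s'.perp _ s.fe
  have c2 := s'.perp _ s.fm
  by_cases h4 : g'' = 1
  · refine Or.inr ⟨e, m, e', m', ⟨?_, s.Qe, s'.Qe, s.em, ?_, ?_, ?_, ?_, s'.em⟩,
      by rw [s.mul, s'.mul, h4, mul_one]⟩
    · rw [Fintype.linearIndependent_iff]
      intro c h
      simp only [Fin.sum_univ_four, Matrix.cons_val] at h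
      obtain ⟨a0, a1, h'⟩ := s.indep (a := c 0) (b := c 1) (w := c 2 • e' + c 3 • m')
        (fun x hx => s'.comb _ _ hx) (by rw [← h]; abel)
      obtain ⟨a2, a3, -⟩ := s'.indep (a := c 2) (b := c 3) (w := 0) (by simp) (by simpa using h')
      intro i
      fin_cases i
      exacts [a0, a1, a2, a3]
    all_goals rw [polar_comm]
    exacts [c1.1, c1.2, c2.1, c2.2]
  exfalso
  obtain ⟨e'', m'', p'', q'', g''', s''⟩ := exists_step hQ h3 s'.cube h4
  have c3 := s''.perp _ (s'.fix _ s.fe)
  have c5 := s''.perp _ (s'.fix _ s.fm)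
  have c4 := s''.perp _ s'.fe
  have c6 := s''.perp _ s'.fm
  have li : LinearIndependent F ![e, m, e', m', e'', m''] := by
    rw [Fintype.linearIndependent_iff]
    intro c h
    simp only [Fin.sum_univ_six, Matrix.cons_val] at h
    obtain ⟨a0, a1, h'⟩ := s.indep (a := c 0) (b := c 1)
      (w := c 2 • e' + c 3 • m' + (c 4 • e'' + c 5 • m''))
      (fun x hx => by rw [polar_add_left, s'.comb _ _ hx, s''.comb _ _ (s'.fix _ hx), add_zero])
      (by rw [← h]; abel)
    obtain ⟨a2, a3, h''⟩ := s'.indep (fun x hx => s''.comb _ _ hx) h'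
    obtain ⟨a4, a5, -⟩ := s''.indep (a := c 4) (b := c 5) (w := 0) (by simp) (by simpa using h'')
    intro i
    fin_cases i
    exacts [a0, a1, a2, a3, a4, a5]
  have li3 : LinearIndependent F ![e, e', e''] := by
    convert li.comp (![0, 2, 4] : Fin 3 → Fin 6) (by decide) using 1
    ext i
    fin_cases i <;> rfl
  have hW := finrank_span_eq_card li3
  have hP := finrank_perp hQ (Submodule.span F (Set.range ![e, e', e'']))
  rw [hW, hV] at hP
  have ee : ∀ x, Q x = 0 → polar Q x x = 0 := fun x hx => by rw [polar_self', hx, mul_zero]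
  have hm : ∀ i, ![e, m, e', m', e'', m''] i ∈ perp Q (Submodule.span F (Set.range ![e, e', e''])) := by
    intro i
    rw [mem_perp_span]
    rintro _ ⟨j, rfl⟩
    fin_cases i <;> fin_cases j <;> simp only [Matrix.cons_val, Fin.zero_eta, Fin.mk_one,
      Fin.reduceFinMk] <;>
      first
        | exact ee _ s.Qe | exact ee _ s'.Qe | exact ee _ s''.Qe | exact s.em | exact s'.em
        | exact s''.em | exact c1.1 | exact c2.1 | exact c3.1 | exact c4.1 | exact c5.1
        | exact c6.1 | (rw [polar_comm]; first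
          | exact c1.1 | exact c1.2 | exact c3.1 | exact c3.2 | exact c4.1 | exact c4.2)
  have := (LinearIndependent.of_comp (perp Q (Submodule.span F (Set.range ![e, e', e'']))).subtype
    (v := fun i => ⟨![e, m, e', m', e'', m''] i, hm i⟩) (by exact li)).fintype_card_le_finrank
  rw [hP] at this
  simp at this

theorem Tup.conj [FiniteDimensional F V] (hQ : ND Q) {e m e' m' a b a' b' : V} (s : Tup Q e m e' m')
    (t : Tup Q a b a' b') (h : Q m = Q b) (h' : Q m' = Q b') :
    IsConj (eich Q e m * eich Q e' m') (eich Q a b * eich Q a' b') := by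
  obtain ⟨g, hg⟩ := witt_family hQ s.li t.li (fun i => by
    fin_cases i
    exacts [s.Qe.trans t.Qe.symm, h, s.Qe'.trans t.Qe'.symm, h']) (fun i j hij => by
    fin_cases i <;> fin_cases j <;> first | exact absurd rfl hij | skip
    all_goals simp only [Matrix.cons_val, Fin.zero_eta, Fin.mk_one, Fin.reduceFinMk]
    all_goals first
      | rw [s.em, t.em] | rw [s.ee', t.ee'] | rw [s.em', t.em'] | rw [s.me', t.me']
      | rw [s.mm', t.mm'] | rw [s.e'm', t.e'm']
      | (rw [polar_comm, polar_comm Q _ a]; first | rw [s.em, t.em] | rw [s.ee', t.ee'] | rw [s.em', t.em'])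
      | (rw [polar_comm, polar_comm Q _ b]; first | rw [s.me', t.me'] | rw [s.mm', t.mm'])
      | (rw [polar_comm, polar_comm Q _ a', s.e'm', t.e'm']))
  refine isConj_iff.2 ⟨g, ?_⟩
  rw [show g * (eich Q e m * eich Q e' m') * g⁻¹ =
    (g * eich Q e m * g⁻¹) * (g * eich Q e' m' * g⁻¹) by group, conj_eich, conj_eich]
  exact congrArg₂ _ (congrArg₂ _ (hg 0) (hg 1)) (congrArg₂ _ (hg 2) (hg 3))

theorem conj_pair [FiniteDimensional F V] (hQ : ND Q) {e m a b : V}
    (s : LinearIndependent F ![e, m]) (t : LinearIndependent F ![a, b]) (he : Q e = 0)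
    (ha : Q a = 0) (em : polar Q e m = 0) (ab : polar Q a b = 0) (h : Q m = Q b) :
    IsConj (eich Q e m) (eich Q a b) := by
  obtain ⟨g, hg⟩ := witt_family hQ s t (fun i => by
    fin_cases i
    exacts [he.trans ha.symm, h]) (fun i j hij => by
    fin_cases i <;> fin_cases j <;> first | exact absurd rfl hij | skip
    · exact em.trans ab.symm
    · exact ((polar_comm _ _ _).trans em).trans ((polar_comm _ _ _).trans ab).symm)
  refine isConj_iff.2 ⟨g, ?_⟩
  rw [conj_eich]
  exact congrArg₂ _ (hg 0) (hg 1)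

theorem Tup.comm {e m e' m' : V} (s : Tup Q e m e' m') :
    eich Q e m * eich Q e' m' = eich Q e' m' * eich Q e m := by
  have := conj_eich (eich Q e m) e' m'
  rw [eich_apply_of_perp s.Qe s.em s.ee', eich_apply_of_perp s.Qe s.em s.em', s.me', s.mm',
    zero_smul, add_zero, add_zero] at this
  exact mul_inv_eq_iff_eq_mul.1 this

theorem Tup.swap {e m e' m' : V} (s : Tup Q e m e' m') : Tup Q e' m' e m := by
  refine ⟨?_, s.Qe', s.Qe, s.e'm', ?_, ?_, ?_, ?_, s.em⟩
  · convert s.li.comp (![2, 3, 0, 1] : Fin 4 → Fin 4) (by decide) using 1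
    ext i
    fin_cases i <;> rfl
  all_goals rw [polar_comm]
  exacts [s.ee', s.me', s.em', s.mm']

/-- Rotation of the two factors when `Q m = Q m'`. -/
theorem Tup.rot (h3 : (3 : F) = 0) {e m e' m' : V} (s : Tup Q e m e' m') (h : Q m = Q m') :
    Tup Q (e + e') (-(m + m')) (e - e') (-(m - m')) ∧ Q (-(m + m')) = -Q m ∧
      Q (-(m - m')) = -Q m ∧
      eich Q e m * eich Q e' m' = eich Q (e + e') (-(m + m')) * eich Q (e - e') (-(m - m')) := by
  have h2 := two_ne h3
  have e'e : polar Q e' e = 0 := (polar_comm _ _ _).trans s.ee'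
  have m'e : polar Q m' e = 0 := (polar_comm _ _ _).trans s.em'
  have e'm : polar Q e' m = 0 := (polar_comm _ _ _).trans s.me'
  have m'm : polar Q m' m = 0 := (polar_comm _ _ _).trans s.mm'
  have me : polar Q m e = 0 := (polar_comm _ _ _).trans s.em
  have m'e' : polar Q m' e' = 0 := (polar_comm _ _ _).trans s.e'm'
  have ee : polar Q e e = 0 := by rw [polar_self', s.Qe, mul_zero]
  have e'e' : polar Q e' e' = 0 := by rw [polar_self', s.Qe', mul_zero]
  have mm : polar Q m m = 2 * Q m := polar_self' _ _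
  have m'm' : polar Q m' m' = 2 * Q m := by rw [polar_self', h]
  have q1 : Q (-(m + m')) = -Q m := by
    rw [Q.map_neg, Q_add, s.mm', ← h]; linear_combination Q m * h3
  have q2 : Q (-(m - m')) = -Q m := by
    rw [Q.map_neg, Q_sub, s.mm', ← h]; linear_combination Q m * h3
  have t : Tup Q (e + e') (-(m + m')) (e - e') (-(m - m')) := by
    refine ⟨?_, by rw [Q_add, s.Qe, s.Qe', s.ee']; simp, by rw [Q_sub, s.Qe, s.Qe', s.ee']; simp,
      ?_, ?_, ?_, ?_, ?_, ?_⟩
    · have li := Fintype.linearIndependent_iff.1 s.li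
      rw [Fintype.linearIndependent_iff]
      intro c hc
      simp only [Fin.sum_univ_four, Matrix.cons_val] at hc
      have := li ![c 0 + c 2, -(c 1 + c 3), c 0 - c 2, -(c 1 - c 3)] (by
        simp only [Fin.sum_univ_four, Matrix.cons_val]
        rw [← hc]; module)
      have a0 := this 0
      have a1 := this 1
      have a2 := this 2
      have a3 := this 3
      simp only [Matrix.cons_val] at a0 a1 a2 a3
      intro i
      refine (mul_eq_zero.1 (show 2 * c i = 0 from ?_)).resolve_left h2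
      fin_cases i
      · exact (by linear_combination a0 + a2 : 2 * c 0 = 0)
      · exact (by linear_combination -a1 - a3 : 2 * c 1 = 0)
      · exact (by linear_combination a0 - a2 : 2 * c 2 = 0)
      · exact (by linear_combination -a1 + a3 : 2 * c 3 = 0)
    all_goals simp only [polar_add_left, polar_add_right, polar_sub_left, polar_sub_right,
      polar_neg_left, polar_neg_right, s.em, s.ee', s.em', s.me', s.mm', s.e'm', e'e, m'e, e'm, m'm,
      me, m'e', ee, e'e', mm, m'm']
    all_goals ring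
  refine ⟨t, q1, q2, O.ext fun v => ?_⟩
  rw [O.mul_apply, O.mul_apply, eich_apply s.Qe s.em, eich_apply t.Qe t.em, eich_apply s.Qe' s.e'm',
    eich_apply t.Qe' t.e'm', q1, q2, ← h]
  simp only [polar_add_left, polar_add_right, polar_sub_left, polar_sub_right, polar_smul_right',
      polar_neg_left, polar_neg_right, s.em, s.ee', s.em', s.me', s.mm', s.e'm', e'e, m'e, e'm, m'm,
      me, m'e', ee, e'e', mm, m'm']
  have z : ∀ (c : F) (w : V), (3 * c) • w = 0 := fun c w => by rw [h3, zero_mul, zero_smul]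
  linear_combination (norm := module) z (polar Q m v - Q m * polar Q e v) e +
    z (polar Q m' v - Q m * polar Q e' v) e' - z (polar Q e v) m - z (polar Q e' v) m'

end Cfsg.Lib.O8p3
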